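import Cfsg.Agent.Lib.RootSub.Connect

set_option autoImplicit false

/-! The commutator case for a member with a rank one partner. -/

namespace Cfsg.Lib.RootSub.Commutator

open Cfsg Cfsg.Lib.RootSub.RankOneLead
open scoped commutatorElement

variable {G : Type*} [Group G] {S : Set (Subgroup G)}

theorem comm_case (hS : IsRootSubgroupSet S) {A B : Subgroup G} (hA : A ∈ S) (hB : B ∈ S) (hC : ⁅A, B⁆ ∈ S) :
    RootCommutatorCase S A B := by
  rcases hS.pair A hA B hB with e | e | e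
  · exact absurd e (hS.ne_bot _ hC)
  · exfalso
    obtain ⟨a, ha, ha1⟩ := (Subgroup.bot_or_exists_ne_one A).resolve_left (ne_bot_left e)
    obtain ⟨b, hb, hb1⟩ := (Subgroup.bot_or_exists_ne_one B).resolve_left (ne_bot_left (RankOnePair_symm e))
    have hnorm : ∀ x ∈ A ⊔ B, conjBy ⁅A, B⁆ x = ⁅A, B⁆ := by
      intro x hx
      have hle : A ⊔ B ≤ Subgroup.normalizer ((⁅A, B⁆ : Subgroup G) : Set G) :=
        sup_le (Subgroup.normalizer_commutator_ge_left A B) (Subgroup.normalizer_commutator_ge_right A B)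
      exact normalizer_iff.1 (hle hx)
    have hcA : ⁅⁅A, B⁆, A⁆ = ⊥ := by
      rcases hS.pair _ hC A hA with e' | e' | e'
      · exact e'
      · exact absurd (no_norm (RankOnePair_symm e') ha (hnorm a (Subgroup.mem_sup_left ha))) ha1
      · exfalso
        have hfix : ∀ c ∈ ⁅A, B⁆, conjBy A c = A := by
          intro c hc
          by_contra hne
          have hm : conjBy A c ∈ unipotentSubgroups A B :=
            mem_conj left_mem (Subgroup.commutator_le_sup A B hc)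
          refine not_commute (pair_points e hm left_mem hne) (bot_of_commute fun x hx y hy => ?_)
          obtain ⟨z, hz, rfl⟩ := hx
          show c * z * c⁻¹ * y = y * (c * z * c⁻¹)
          have h1 := e'.2.1 ⁅c, z⁆ (Subgroup.commutator_mem_commutator hc hz) y (Subgroup.mem_sup_right hy)
          have e2 : c * z * c⁻¹ = ⁅c, z⁆ * z := by simp [commutatorElement_def]
          rw [e2, mul_assoc, self_commute hS hA hz hy, ← mul_assoc, h1, mul_assoc]
        have hle : ⁅⁅A, B⁆, A⁆ ≤ A := by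
          rw [Subgroup.commutator_le]
          intro c hc z hz
          rw [commutatorElement_def]
          refine mul_mem ?_ (inv_mem hz)
          have hm : c * z * c⁻¹ ∈ conjBy A c := ⟨z, hz, rfl⟩
          rwa [hfix c hc] at hm
        have hle2 : ⁅⁅A, B⁆, A⁆ ≤ ⁅A, B⁆ := by
          rw [Subgroup.commutator_le]
          intro c hc z hz
          rw [commutatorElement_def, mul_assoc c, mul_assoc c]
          refine mul_mem hc ?_
          have hm : z * c⁻¹ * z⁻¹ ∈ conjBy ⁅A, B⁆ z := ⟨c⁻¹, inv_mem hc, rfl⟩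
          rw [hnorm z (Subgroup.mem_sup_left hz)] at hm
          simpa [mul_assoc] using hm
        rcases inf_eq_bot_or_eq hS hA hB hC e with e0 | e0
        · exact hS.ne_bot _ e'.1 (le_bot_iff.1 (e0 ▸ le_inf hle hle2))
        · have := hnorm b (Subgroup.mem_sup_right hb)
          rw [← e0] at this
          exact hb1 (no_norm (RankOnePair_symm e) hb this)
    have hcX : ∀ x ∈ ⁅A, B⁆, ∀ y ∈ B, x * y = y * x := by
      intro x hx y hy
      obtain ⟨g, hg, hg2⟩ := right_mem e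
      rw [hg2] at hy
      obtain ⟨z, hz, rfl⟩ := hy
      have hx' : g⁻¹ * x * g ∈ ⁅A, B⁆ := by
        rw [← mem_cB, hnorm g hg]; exact hx
      show x * (g * z * g⁻¹) = g * z * g⁻¹ * x
      calc x * (g * z * g⁻¹) = g * ((g⁻¹ * x * g) * z) * g⁻¹ := by group
        _ = g * (z * (g⁻¹ * x * g)) * g⁻¹ := by rw [commute_of_bot hcA hx' hz]
        _ = g * z * g⁻¹ * x := by group
    have hf : ⁅b, a⁆ ∈ ⁅A, B⁆ := by
      rw [Subgroup.commutator_comm]; exact Subgroup.commutator_mem_commutator hb ha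
    have := eq_of_mul_mem hS hA hB (hS.conj_mem A hA b) e (fun x hx => commute_of_bot hcA hf hx)
      (fun x hx => hcX _ hf x hx) ha ha1 (show ⁅b, a⁆ * a ∈ conjBy A b from ⟨a, ha, by simp [commutatorElement_def]⟩)
    exact hb1 (no_norm (RankOnePair_symm e) hb this.1)
  · exact e

theorem ne_comm {A B : Subgroup G} (hS : IsRootSubgroupSet S) (h : RootCommutatorCase S A B) : ⁅A, B⁆ ≠ A := by
  intro e
  refine hS.ne_bot _ h.1 (bot_of_commute fun a ha b hb => ?_)
  exact h.2.1 a (by rw [e]; exact ha) b (Subgroup.mem_sup_right hb)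

/-- in the commutator case, a member with a partner has trivial elementwise centralizers -/
theorem eq_one_of_commute (hS : IsRootSubgroupSet S) {A A' B : Subgroup G} (hA : A ∈ S) (hA' : A' ∈ S)
    (h : IsRankOnePair A A') (hc : RootCommutatorCase S A B) {a b : G} (ha : a ∈ A) (ha1 : a ≠ 1)
    (hb : b ∈ B) (he : a * b = b * a) : b = 1 := by
  by_contra hb1
  have haC : a ∈ conjBy A b := by rw [mem_cB, mul_assoc, he, inv_mul_cancel_left]; exact ha
  have hfix : conjBy A b = A := by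
    rcases inf_eq_bot_or_eq hS hA hA' (hS.conj_mem A hA b) h with e | e
    · exact absurd (Subgroup.mem_bot.1 (e ▸ (⟨ha, haC⟩ : a ∈ A ⊓ conjBy A b))) ha1
    · exact e.symm
  refine hS.ne_bot _ hc.1 ?_
  rw [← hc.2.2.2 b hb hb1, Subgroup.closure_eq_bot_iff]
  rintro _ ⟨x, hx, rfl⟩
  show x * b * x⁻¹ * b⁻¹ = 1
  have h1 : x * b * x⁻¹ * b⁻¹ ∈ A := by
    have hm : b * x⁻¹ * b⁻¹ ∈ conjBy A b := ⟨x⁻¹, inv_mem hx, rfl⟩
    rw [hfix] at hm
    simpa [mul_assoc] using mul_mem hx hm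
  have h2 : x * b * x⁻¹ * b⁻¹ ∈ ⁅A, B⁆ := Subgroup.commutator_mem_commutator hx hb
  rcases inf_eq_bot_or_eq hS hA hA' hc.1 h with e | e
  · exact Subgroup.mem_bot.1 (e ▸ (⟨h1, h2⟩ : _ ∈ A ⊓ ⁅A, B⁆))
  · exact absurd e.symm (ne_comm hS hc)

/-- the map from the other side is a homomorphism -/
def chom {A B : Subgroup G} (hc : RootCommutatorCase S A B) {a : G} (ha : a ∈ A) : B →* ↥⁅A, B⁆ where
  toFun b := ⟨a * (b : G) * a⁻¹ * (b : G)⁻¹, Subgroup.commutator_mem_commutator ha b.2⟩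
  map_one' := by ext; simp
  map_mul' b b' := by
    ext
    have h1 := hc.2.1 _ (Subgroup.commutator_mem_commutator ha b'.2) (b : G) (Subgroup.mem_sup_right b.2)
    simp only [commutatorElement_def] at h1
    show a * ((b : G) * b') * a⁻¹ * ((b : G) * b')⁻¹ = a * (b : G) * a⁻¹ * (b : G)⁻¹ * (a * (b' : G) * a⁻¹ * (b' : G)⁻¹)
    calc a * ((b : G) * b') * a⁻¹ * ((b : G) * b')⁻¹
        = a * (b : G) * a⁻¹ * ((a * (b' : G) * a⁻¹ * (b' : G)⁻¹) * (b : G)⁻¹) := by group
      _ = a * (b : G) * a⁻¹ * ((b : G)⁻¹ * (a * (b' : G) * a⁻¹ * (b' : G)⁻¹)) := by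
          congr 1
          calc (a * (b' : G) * a⁻¹ * (b' : G)⁻¹) * (b : G)⁻¹
              = (b : G)⁻¹ * ((b : G) * (a * (b' : G) * a⁻¹ * (b' : G)⁻¹)) * (b : G)⁻¹ := by group
            _ = (b : G)⁻¹ * ((a * (b' : G) * a⁻¹ * (b' : G)⁻¹) * (b : G)) * (b : G)⁻¹ := by rw [h1]
            _ = _ := by group
      _ = _ := by group

theorem chom_surjective {A B : Subgroup G} (hc : RootCommutatorCase S A B) {a : G} (ha : a ∈ A) (ha1 : a ≠ 1) :
    Function.Surjective (chom hc ha) := by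
  intro c
  have hle : ⁅A, B⁆ ≤ (chom hc ha).range.map (⁅A, B⁆).subtype := by
    conv_lhs => rw [← hc.2.2.1 a ha ha1]
    rw [Subgroup.closure_le]
    rintro _ ⟨b, hb, rfl⟩
    exact ⟨chom hc ha ⟨b, hb⟩, ⟨_, rfl⟩, rfl⟩
  obtain ⟨c', ⟨b, hb⟩, e⟩ := hle c.2
  exact ⟨b, hb.trans (Subtype.ext e)⟩

theorem chom_injective (hS : IsRootSubgroupSet S) {A A' B : Subgroup G} (hA : A ∈ S) (hA' : A' ∈ S)
    (h : IsRankOnePair A A') (hc : RootCommutatorCase S A B) {a : G} (ha : a ∈ A) (ha1 : a ≠ 1) :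
    Function.Injective (chom hc ha) := by
  rw [injective_iff_map_eq_one]
  intro b hb
  have e : a * (b : G) * a⁻¹ * (b : G)⁻¹ = 1 := congrArg Subtype.val hb
  exact Subtype.ext (eq_one_of_commute hS hA hA' h hc ha ha1 b.2 (mul_inv_eq_iff_eq_mul.1 (mul_inv_eq_one.1 e)))

/-- a member contained in `⁅A, B⁆` is equal to it -/
theorem eq_of_le (hS : IsRootSubgroupSet S) {A A' B E : Subgroup G} (hA : A ∈ S) (hA' : A' ∈ S) (hB : B ∈ S)
    (h : IsRankOnePair A A') (hc : RootCommutatorCase S A B) (hE : E ∈ S) (hle : E ≤ ⁅A, B⁆) : E = ⁅A, B⁆ := by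
  obtain ⟨e, he, he1⟩ := (Subgroup.bot_or_exists_ne_one E).resolve_left (hS.ne_bot E hE)
  have hFA : ∀ x ∈ ⁅A, B⁆, ∀ y ∈ A, x * y = y * x := fun x hx y hy => hc.2.1 x hx y (Subgroup.mem_sup_left hy)
  obtain ⟨a, ha, ha1⟩ := (Subgroup.bot_or_exists_ne_one A).resolve_left (hS.ne_bot A hA)
  obtain ⟨b, hb, hb1⟩ := (Subgroup.bot_or_exists_ne_one B).resolve_left (hS.ne_bot B hB)
  rcases hS.pair A' hA' _ hc.1 with e1 | e1 | e1
  · exfalso
    have hmem : ⁅b, a⁆ ∈ ⁅A, B⁆ := by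
      rw [Subgroup.commutator_comm]; exact Subgroup.commutator_mem_commutator hb ha
    have := (eq_of_mul_mem hS hA hA' (hS.conj_mem A hA b) h (fun x hx => hFA _ hmem x hx)
      (fun x hx => (commute_of_bot e1 hx hmem).symm) ha ha1
      (show ⁅b, a⁆ * a ∈ conjBy A b from ⟨a, ha, by simp [commutatorElement_def]⟩)).2
    exact hb1 (eq_one_of_commute hS hA hA' h hc ha ha1 hb (commutatorElement_eq_one_iff_mul_comm.1 this).symm)
  · rcases inf_eq_bot_or_eq hS hc.1 hA' hE (RankOnePair_symm e1) with e0 | e0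
    · exact absurd (Subgroup.mem_bot.1 (e0 ▸ (⟨hle he, he⟩ : e ∈ ⁅A, B⁆ ⊓ E))) he1
    · exact e0.symm
  · obtain ⟨d, hd, hd1⟩ := (Subgroup.bot_or_exists_ne_one A').resolve_left (hS.ne_bot A' hA')
    have hinj := chom_injective hS hA' hA (RankOnePair_symm h) e1 hd hd1
    let E₀ : Subgroup ↥⁅A, B⁆ := E.subgroupOf ⁅A, B⁆
    suffices hsuff : E₀.map (chom e1 hd) = ⊤ by
      refine le_antisymm hle fun c hc' => ?_
      obtain ⟨x, hx, hxe⟩ : chom e1 hd ⟨c, hc'⟩ ∈ E₀.map (chom e1 hd) := hsuff ▸ Subgroup.mem_top _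
      have hxc := hinj hxe
      rw [hxc] at hx
      exact hx
    have hEA : RootCommutatorCase S A' E := by
      rcases hS.pair A' hA' E hE with e2 | e2 | e2
      · exact absurd (eq_one_of_commute hS hA' hA (RankOnePair_symm h) e1 hd hd1 (hle he) (commute_of_bot e2 hd he)) he1
      · exfalso
        refine not_commute (pair_points e2 (mem_conj left_mem (Subgroup.mem_sup_right he)) left_mem
          fun e3 => he1 (no_norm (RankOnePair_symm e2) he e3)) (bot_of_commute ?_)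
        exact commutator_case_commute hS hA' e1 (hle he)
      · exact e2
    have hH : ⁅A', E⁆ = ⁅A', ⁅A, B⁆⁆ := by
      rw [← hEA.2.2.2 e he he1, ← e1.2.2.2 e (hle he) he1]
    have h1 : ⁅A', ⁅A, B⁆⁆ ≤ (E₀.map (chom e1 hd)).map (⁅A', ⁅A, B⁆⁆).subtype := by
      conv_lhs => rw [← hH, ← hEA.2.2.1 d hd hd1]
      rw [Subgroup.closure_le]
      rintro _ ⟨x, hx, rfl⟩
      exact ⟨chom e1 hd ⟨x, hle hx⟩, ⟨_, hx, rfl⟩, rfl⟩
    refine eq_top_iff.2 fun y _ => ?_
    obtain ⟨y', hy', e3⟩ := h1 y.2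
    rwa [← Subtype.ext (a1 := y') (a2 := y) e3]

end Cfsg.Lib.RootSub.Commutator
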