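import Cfsg.Agent.Lib.RootSub.RankOneLead

set_option autoImplicit false

/-! Connectivity of the rank one graph. -/

namespace Cfsg.Lib.RootSub.Connect

open Cfsg Cfsg.Lib.RootSub.RankOneLead
open scoped commutatorElement

variable {G : Type*} [Group G] {S : Set (Subgroup G)}

/-- a member through a product `f * a` is `A` or a rank one partner of `B` -/
theorem eq_or_adj (hS : IsRootSubgroupSet S) {A B F C : Subgroup G} (hA : A ∈ S) (hB : B ∈ S) (hF : F ∈ S)
    (hC : C ∈ S) (h : IsRankOnePair A B) (hFA : ∀ x ∈ F, ∀ y ∈ A, x * y = y * x) {f a : G} (hf : f ∈ F)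
    (ha : a ∈ A) (ha1 : a ≠ 1) (hc : f * a ∈ C) :
    C = A ∨ IsRankOnePair B C ∨ IsRankOnePair B F := by
  rcases hS.pair B hB F hF with e | e | e
  · exact Or.inl (eq_of_mul_mem hS hA hB hC h (fun x hx => hFA f hf x hx)
      (fun x hx => (commute_of_bot e hx hf).symm) ha ha1 hc).1
  · exact Or.inr (Or.inr e)
  rcases hS.pair B hB C hC with e' | e' | e'
  · exfalso
    have h1 : conjBy B (f * a) = B := cB_of_commute fun x hx => (commute_of_bot e' hx hc).symm
    rw [← cB_mul] at h1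
    have h2 : conjBy B a = conjBy B f⁻¹ := eq_cB_inv h1
    refine not_commute (pair_points h (mem_conj (right_mem h) (Subgroup.mem_sup_left ha)) (right_mem h)
      (fun e0 => ha1 (no_norm h ha e0))) (bot_of_commute ?_)
    rw [h2]
    exact commutator_case_commute hS hB e (inv_mem hf)
  · exact Or.inr (Or.inl e')
  · exfalso
    have hBa : IsRankOnePair (conjBy B a) B :=
      pair_points h (mem_conj (right_mem h) (Subgroup.mem_sup_left ha)) (right_mem h) fun e0 => ha1 (no_norm h ha e0)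
    have h1 := commutator_case_commute hS hB e' hc
    have h2 := commutator_case_commute hS hB e hf
    have hfa : f * a = a * f := hFA f hf a ha
    obtain ⟨_, ⟨b, hb, rfl⟩, hb1⟩ :=
      (Subgroup.bot_or_exists_ne_one (conjBy B a)).resolve_left (ne_bot_left hBa)
    have hcomm : ∀ x ∈ conjBy B (f * a), ∀ y ∈ conjBy B a, x * y = y * x := by
      intro x hx y hy
      rw [hfa, ← cB_mul] at hx
      obtain ⟨x', hx', rfl⟩ := hx
      obtain ⟨y', hy', rfl⟩ := hy
      rw [← map_mul, ← map_mul, h2 x' hx' y' hy']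
    have he : f * (a * b * a⁻¹) * f⁻¹ ∈ conjBy B (f * a) := ⟨b, hb, by simp [mul_assoc]⟩
    have hH : f * (a * b * a⁻¹) * f⁻¹ * (a * b * a⁻¹)⁻¹ ∈ conjBy ⁅B, F⁆ a := by
      rw [Subgroup.commutator_comm]
      refine ⟨⁅f, b⁆, Subgroup.commutator_mem_commutator hf hb, ?_⟩
      show a * ⁅f, b⁆ * a⁻¹ = _
      calc a * ⁅f, b⁆ * a⁻¹ = (a * f) * b * (a * f)⁻¹ * (a * b * a⁻¹)⁻¹ := by rw [commutatorElement_def]; group
        _ = _ := by rw [← hfa]; group
    have h3 := eq_of_mul_mem hS (hS.conj_mem B hB a) hB (hS.conj_mem _ e.1 a) hBa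
      (z := f * (a * b * a⁻¹) * f⁻¹) (fun x hx => hcomm _ he x hx) (fun x hx => h1 _ he x hx)
      (a := (a * b * a⁻¹)⁻¹) (inv_mem ⟨b, hb, rfl⟩) (inv_ne_one.2 hb1) hH
    exact hb1 (conj_eq_one_iff.1 h3.2)

theorem adj_conj (hS : IsRootSubgroupSet S) {A B : Subgroup G} (h : FAdj S A B) (g : G) :
    FAdj S (conjBy A g) (conjBy B g) :=
  ⟨hS.conj_mem A h.1 g, hS.conj_mem B h.2.1 g, map_conj h.2.2 g⟩

theorem adj_symm {A B : Subgroup G} (h : FAdj S A B) : FAdj S B A := ⟨h.2.1, h.1, RankOnePair_symm h.2.2⟩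

theorem reach_symm {A B : Subgroup G} (h : Relation.ReflTransGen (FAdj S) A B) :
    Relation.ReflTransGen (FAdj S) B A := by
  induction h with
  | refl => exact .refl
  | tail _ h2 ih => exact ih.head (adj_symm h2)

theorem reach_conj (hS : IsRootSubgroupSet S) {A B : Subgroup G} (h : Relation.ReflTransGen (FAdj S) A B) (g : G) :
    Relation.ReflTransGen (FAdj S) (conjBy A g) (conjBy B g) := by
  induction h with
  | refl => exact .refl
  | tail _ h2 ih => exact ih.tail (adj_conj hS h2 g)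

theorem reach_step (hS : IsRootSubgroupSet S) {A B D : Subgroup G} (hA : A ∈ S) (hB : B ∈ S) (hD : D ∈ S)
    (h : IsRankOnePair A B) {d : G} (hd : d ∈ D) : Relation.ReflTransGen (FAdj S) A (conjBy A d) := by
  rcases hS.pair A hA D hD with e | e | e
  · rw [cB_of_commute fun x hx => (commute_of_bot e hx hd).symm]
  · have hAD : FAdj S A D := ⟨hA, hD, e⟩
    have h1 := adj_symm (adj_conj hS hAD d)
    rw [cB_mem_self hd] at h1
    exact .tail (.single hAD) h1
  obtain ⟨a, ha, ha1⟩ := (Subgroup.bot_or_exists_ne_one A).resolve_left (ne_bot_left h)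
  have hFA : ∀ x ∈ ⁅A, D⁆, ∀ y ∈ A, x * y = y * x := fun x hx y hy => e.2.1 x hx y (Subgroup.mem_sup_left hy)
  have hf : ⁅d, a⁆ ∈ ⁅A, D⁆ := by
    rw [Subgroup.commutator_comm]; exact Subgroup.commutator_mem_commutator hd ha
  have hmem : ⁅d, a⁆ * a ∈ conjBy A d := ⟨a, ha, by simp [commutatorElement_def]⟩
  have hAB : FAdj S A B := ⟨hA, hB, h⟩
  rcases eq_or_adj hS hA hB e.1 (hS.conj_mem A hA d) h hFA hf ha ha1 hmem with e1 | e1 | e1
  · rw [e1]
  · exact .tail (.single hAB) ⟨hB, hS.conj_mem A hA d, e1⟩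
  · have hBF : FAdj S B ⁅A, D⁆ := ⟨hB, e.1, e1⟩
    have hfix : conjBy ⁅A, D⁆ d = ⁅A, D⁆ :=
      cB_of_commute fun x hx => (e.2.1 x hx d (Subgroup.mem_sup_right hd)).symm
    have h2 := adj_symm (adj_conj hS hBF d)
    rw [hfix] at h2
    exact .tail (.tail (.tail (.single hAB) hBF) h2) (adj_symm (adj_conj hS hAB d))

/-- in the presence of partners everywhere, components are invariant -/
theorem reach_all (hS : IsRootSubgroupSet S) (hp : ∀ A ∈ S, ∃ B ∈ S, IsRankOnePair A B) (g : G) :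
    ∀ A ∈ S, Relation.ReflTransGen (FAdj S) A (conjBy A g) := by
  have hg : g ∈ ⨆ D : S, (D : Subgroup G) := by
    rw [iSup_subtype'' S (fun D => D), hS.generates]; exact Subgroup.mem_top g
  rw [Subgroup.iSup_eq_closure] at hg
  induction hg using Subgroup.closure_induction with
  | mem d hd =>
    obtain ⟨D, hdD⟩ := Set.mem_iUnion.1 hd
    intro A hA
    obtain ⟨B, hB, h⟩ := hp A hA
    exact reach_step hS hA hB D.2 h hdD
  | one => intro A _; rw [cB_one]
  | mul x y _ _ hx hy =>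
    intro A hA
    rw [← cB_mul]
    exact (hy A hA).trans (hx _ (hS.conj_mem A hA y))
  | inv x _ hx =>
    intro A hA
    have h1 := hx _ (hS.conj_mem A hA x⁻¹)
    rw [cB_mul, mul_inv_cancel, cB_one] at h1
    exact reach_symm h1

end Cfsg.Lib.RootSub.Connect
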