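import Cfsg.Agent.Lib.RootSub.Commutator

set_option autoImplicit false

/-! Lines of abstract root subgroups. -/

namespace Cfsg.Lib.RootSub.Line

open Cfsg Cfsg.Lib.RootSub.RankOneLead Cfsg.Lib.RootSub.Commutator Cfsg.Lib.RootSub.Connect
open scoped commutatorElement

variable {G : Type*} [Group G] {S : Set (Subgroup G)}

theorem members_cover {A D : Subgroup G} (hc : RootCommutatorCase S A D) {x : G} (hx : x ∈ A ⊔ ⁅A, D⁆) :
    x ∈ ⁅A, D⁆ ∨ ∃ δ ∈ D, ∃ a ∈ A, a ≠ 1 ∧ x = δ * a * δ⁻¹ := by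
  have hAC : ∀ y ∈ ⁅A, D⁆, ∀ a ∈ A, y * a = a * y := fun y hy a ha => hc.2.1 y hy a (Subgroup.mem_sup_left ha)
  have hn : A ≤ Subgroup.normalizer ((⁅A, D⁆ : Subgroup G) : Set G) := Subgroup.normalizer_commutator_ge_left A D
  obtain ⟨a, ha, c, hc1, rfl⟩ : ∃ a ∈ A, ∃ c ∈ ⁅A, D⁆, x = a * c := by
    have hx' : x ∈ ((A ⊔ ⁅A, D⁆ : Subgroup G) : Set G) := hx
    rw [Subgroup.coe_mul_of_left_le_normalizer_right A ⁅A, D⁆ hn] at hx'
    obtain ⟨a, ha, c, hc1, rfl⟩ := hx'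
    exact ⟨a, ha, c, hc1, rfl⟩
  by_cases ha1 : a = 1
  · left; rw [ha1, one_mul]; exact hc1
  right
  obtain ⟨δ, hδ⟩ := chom_surjective hc ha ha1 ⟨c⁻¹, inv_mem hc1⟩
  have hδ' : a * (δ : G) * a⁻¹ * (δ : G)⁻¹ = c⁻¹ := congrArg Subtype.val hδ
  refine ⟨δ, δ.2, a, ha, ha1, ?_⟩
  calc a * c = c * a := (hAC c hc1 a ha).symm
    _ = (a * (δ : G) * a⁻¹ * (δ : G)⁻¹)⁻¹ * a := by rw [hδ', inv_inv]
    _ = _ := by group

variable (hS : IsRootSubgroupSet S) (hp : ∀ A ∈ S, ∃ B ∈ S, IsRankOnePair A B)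
include hS hp

theorem inf_bot_of_ne {A B : Subgroup G} (hA : A ∈ S) (hB : B ∈ S) (hne : A ≠ B) : A ⊓ B = ⊥ := by
  obtain ⟨A', hA', h⟩ := hp A hA
  exact (inf_eq_bot_or_eq hS hA hA' hB h).resolve_right hne

theorem eq_of_mem {A B : Subgroup G} (hA : A ∈ S) (hB : B ∈ S) {x : G} (hxA : x ∈ A) (hxB : x ∈ B) (hx1 : x ≠ 1) :
    A = B := by
  by_contra hne
  exact hx1 (Subgroup.mem_bot.1 (inf_bot_of_ne hS hp hA hB hne ▸ (⟨hxA, hxB⟩ : x ∈ A ⊓ B)))

theorem not_both {A A' : Subgroup G} (hA : A ∈ S) (hA' : A' ∈ S) (h : IsRankOnePair A A')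
    (hc : RootCommutatorCase S A' A) : False := by
  obtain ⟨α, hα, hα1⟩ := (Subgroup.bot_or_exists_ne_one A).resolve_left (hS.ne_bot A hA)
  obtain ⟨a, ha, -, hpt⟩ := cl h hα hα1
  refine not_commute h (bot_of_commute fun x hx y hy => ?_)
  have h4 := commutator_case_commute hS hA' hc hα (a * x * a⁻¹) (hpt ▸ ⟨x, hx, rfl⟩) (a * y * a⁻¹)
    (A'.mul_mem (A'.mul_mem ha hy) (A'.inv_mem ha))
  calc x * y = a⁻¹ * ((a * x * a⁻¹) * (a * y * a⁻¹)) * a := by group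
    _ = a⁻¹ * ((a * y * a⁻¹) * (a * x * a⁻¹)) * a := by rw [h4]
    _ = y * x := by group

/-- a commutator partner produces a member moving `A` along the line -/
theorem mover {A A' C : Subgroup G} (hA : A ∈ S) (hA' : A' ∈ S) (hC : C ∈ S) (h : IsRankOnePair A A')
    (hAC : ∀ x ∈ A, ∀ y ∈ C, x * y = y * x) (hcC : RootCommutatorCase S A' C)
    (hline : ∀ x ∈ A ⊔ C, x ≠ 1 → ∃ M ∈ S, x ∈ M) :
    RootCommutatorCase S A ⁅A', C⁆ ∧ ⁅A, ⁅A', C⁆⁆ = C := by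
  set D := ⁅A', C⁆ with hDdef
  have hD : D ∈ S := hcC.1
  have hDA' : ∀ x ∈ D, ∀ y ∈ A', x * y = y * x := fun x hx y hy => hcC.2.1 x hx y (Subgroup.mem_sup_left hy)
  have hDC : ∀ x ∈ D, ∀ y ∈ C, x * y = y * x := fun x hx y hy => hcC.2.1 x hx y (Subgroup.mem_sup_right hy)
  have hCfix : ∀ g ∈ A, conjBy C g = C := fun g hg => cB_of_commute fun x hx => hAC g hg x hx
  obtain ⟨a0, ha0, ha01⟩ := (Subgroup.bot_or_exists_ne_one A').resolve_left (hS.ne_bot A' hA')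
  obtain ⟨c0, hc0, hc01⟩ := (Subgroup.bot_or_exists_ne_one C).resolve_left (hS.ne_bot C hC)
  have hd0 : a0 * c0 * a0⁻¹ * c0⁻¹ ∈ D := Subgroup.commutator_mem_commutator ha0 hc0
  have hd01 : a0 * c0 * a0⁻¹ * c0⁻¹ ≠ 1 := fun e =>
    hc01 (eq_one_of_commute hS hA' hA (RankOnePair_symm h) hcC ha0 ha01 hc0
      (mul_inv_eq_iff_eq_mul.1 (mul_inv_eq_one.1 e)))
  have hcomm : RootCommutatorCase S A D := by
    rcases hS.pair A hA D hD with e | e | e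
    · exfalso
      obtain ⟨α, hα, -, hα'⟩ := cl (RankOnePair_symm h) (inv_mem ha0) (inv_ne_one.2 ha01)
      have hcD : ∀ x ∈ conjBy C a0, ∀ y ∈ A, x * y = y * x := by
        rintro _ ⟨c, hc, rfl⟩ y hy
        show a0 * c * a0⁻¹ * y = y * (a0 * c * a0⁻¹)
        have h1 : a0 * c * a0⁻¹ * c⁻¹ ∈ D := Subgroup.commutator_mem_commutator ha0 hc
        rw [show a0 * c * a0⁻¹ = (a0 * c * a0⁻¹ * c⁻¹) * c by group, mul_assoc, ← hAC y hy c hc, ← mul_assoc,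
          ← commute_of_bot e hy h1, mul_assoc]
      -- then `A'` commutes with `C`
      refine hS.ne_bot D hD (bot_of_commute fun x hx c hc => ?_)
      have hm : α * x * α⁻¹ ∈ conjBy A a0⁻¹ := hα' ▸ ⟨x, hx, rfl⟩
      rw [mem_cB, inv_inv] at hm
      have h1 := hcD (a0 * c * a0⁻¹) ⟨c, hc, rfl⟩ _ hm
      have h2 : (α * x * α⁻¹) * c = c * (α * x * α⁻¹) := by
        calc (α * x * α⁻¹) * c = a0⁻¹ * ((a0 * (α * x * α⁻¹) * a0⁻¹) * (a0 * c * a0⁻¹)) * a0 := by group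
          _ = a0⁻¹ * ((a0 * c * a0⁻¹) * (a0 * (α * x * α⁻¹) * a0⁻¹)) * a0 := by rw [h1]
          _ = _ := by group
      have h3 := hAC α hα c hc
      calc x * c = α⁻¹ * ((α * x * α⁻¹) * (α * c)) := by group
        _ = α⁻¹ * ((α * x * α⁻¹) * c * α) := by rw [h3]; group
        _ = α⁻¹ * (c * (α * x * α⁻¹) * α) := by rw [h2]
        _ = α⁻¹ * (c * α) * x := by group
        _ = c * x := by rw [← h3, inv_mul_cancel_left]
    · exfalso
      -- `C` centralizes `A ⊔ D`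
      have hmem : c0 * (c0⁻¹ * (a0 * c0 * a0⁻¹)) ∈ conjBy C a0 := by rw [mul_inv_cancel_left]; exact ⟨c0, hc0, rfl⟩
      have hd : c0⁻¹ * (a0 * c0 * a0⁻¹) = a0 * c0 * a0⁻¹ * c0⁻¹ := by
        calc c0⁻¹ * (a0 * c0 * a0⁻¹) = c0⁻¹ * ((a0 * c0 * a0⁻¹ * c0⁻¹) * c0) := by group
          _ = c0⁻¹ * (c0 * (a0 * c0 * a0⁻¹ * c0⁻¹)) := by rw [hDC _ hd0 c0 hc0]
          _ = _ := by group
      rw [hd] at hmem
      exact hc01 (eq_of_mul_mem hS hD hA (hS.conj_mem C hC a0) (RankOnePair_symm e) (fun x hx => (hDC x hx c0 hc0).symm)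
        (fun x hx => (hAC x hx c0 hc0).symm) hd0 hd01 hmem).2
    · exact e
  refine ⟨hcomm, ?_⟩
  set F := ⁅A, D⁆ with hFdef
  have hF : F ∈ S := hcomm.1
  have hFA : ∀ x ∈ F, ∀ y ∈ A, x * y = y * x := fun x hx y hy => hcomm.2.1 x hx y (Subgroup.mem_sup_left hy)
  have hFD : ∀ x ∈ F, ∀ y ∈ D, x * y = y * x := fun x hx y hy => hcomm.2.1 x hx y (Subgroup.mem_sup_right hy)
  obtain ⟨α, hα, hα1⟩ := (Subgroup.bot_or_exists_ne_one A).resolve_left (hS.ne_bot A hA)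
  obtain ⟨a, ha, ha1, hpt⟩ := cl h hα hα1
  obtain ⟨δ, hδ, hδ1⟩ := (Subgroup.bot_or_exists_ne_one D).resolve_left (hS.ne_bot D hD)
  set f := α * δ * α⁻¹ * δ⁻¹ with hfdef
  have hf : f ∈ F := Subgroup.commutator_mem_commutator hα hδ
  have hf1 : f ≠ 1 := fun e =>
    hδ1 (eq_one_of_commute hS hA hA' h hcomm hα hα1 hδ (mul_inv_eq_iff_eq_mul.1 (mul_inv_eq_one.1 e)))
  have hle : D.map (MulAut.conj α).toMonoidHom ≤ conjBy F a := by
    rw [hDdef, Subgroup.map_commutator, Subgroup.commutator_le]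
    intro g₁ h₁ g₂ h₂
    have e1 : g₂ ∈ C := by
      have := hCfix α hα
      rw [conjBy] at this
      rwa [this] at h₂
    have h₁' : g₁ ∈ conjBy A a := hpt ▸ h₁
    obtain ⟨β, hβ, rfl⟩ := h₁'
    rw [mem_cB]
    set η := a⁻¹ * g₂ * a * g₂⁻¹ with hη
    have hηD : η ∈ D := by
      have := Subgroup.commutator_mem_commutator (inv_mem ha) e1
      rwa [commutatorElement_def, inv_inv] at this
    have k1 := hAC β hβ g₂ e1
    have h5 : a⁻¹ * ⁅a * β * a⁻¹, g₂⁆ * a = β * η * (g₂ * β⁻¹) * g₂⁻¹ * η⁻¹ := by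
      rw [hη, commutatorElement_def]; group
    show a⁻¹ * ⁅a * β * a⁻¹, g₂⁆ * a ∈ F
    rw [h5, show g₂ * β⁻¹ = β⁻¹ * g₂ from (hAC _ (inv_mem hβ) g₂ e1).symm,
      show β * η * (β⁻¹ * g₂) * g₂⁻¹ * η⁻¹ = β * η * β⁻¹ * η⁻¹ by group]
    exact Subgroup.commutator_mem_commutator hβ hηD
  set f' := a⁻¹ * (α * δ * α⁻¹) * a with hf'def
  have hf' : f' ∈ F := mem_cB.1 (hle ⟨δ, hδ, rfl⟩)
  have e1 : a⁻¹ * f * a = f' * δ⁻¹ := by
    have h1 := hDA' δ⁻¹ (inv_mem hδ) a ha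
    calc a⁻¹ * f * a = a⁻¹ * (α * δ * α⁻¹) * (δ⁻¹ * a) := by rw [hfdef]; group
      _ = a⁻¹ * (α * δ * α⁻¹) * (a * δ⁻¹) := by rw [h1]
      _ = f' * δ⁻¹ := by rw [hf'def]; group
  obtain ⟨hEc, hff⟩ : RootCommutatorCase S A' F ∧ f' = f := by
    rcases hS.pair A' hA' F hF with e | e | e
    · exfalso
      have h1 : a⁻¹ * f * a = f := by
        rw [mul_assoc, ← commute_of_bot e ha hf, inv_mul_cancel_left]
      rw [h1] at e1
      have hδF : δ ∈ F := by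
        have : δ = f⁻¹ * f' := by rw [e1]; group
        rw [this]; exact mul_mem (inv_mem hf) hf'
      exact ne_comm hS (by
        have hc' : RootCommutatorCase S D A := comm_case hS hD hA (by rw [Subgroup.commutator_comm]; exact hF)
        exact hc') (by rw [Subgroup.commutator_comm]; exact eq_of_mem hS hp hF hD hδF hδ hδ1)
    · exfalso
      have hf'1 : f' ≠ 1 := fun e0 => hδ1 (by
        have : α * δ * α⁻¹ = 1 := by rw [show α * δ * α⁻¹ = a * f' * a⁻¹ by rw [hf'def]; group, e0]; group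
        exact conj_eq_one_iff.1 this)
      have hmem : δ⁻¹ * f' ∈ conjBy F a⁻¹ := by
        rw [← hFD f' hf' δ⁻¹ (inv_mem hδ), ← e1]; exact ⟨f, hf, by simp⟩
      exact hδ1 (inv_eq_one.1 (eq_of_mul_mem hS hF hA' (hS.conj_mem F hF a⁻¹) (RankOnePair_symm e)
        (fun x hx => (hFD x hx δ⁻¹ (inv_mem hδ)).symm) (fun x hx => hDA' δ⁻¹ (inv_mem hδ) x hx) hf' hf'1 hmem).2)
    · refine ⟨e, ?_⟩
      have hmem : a⁻¹ * f * a * f⁻¹ ∈ ⁅A', F⁆ := by
        have := Subgroup.commutator_mem_commutator (inv_mem ha) hf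
        rwa [commutatorElement_def, inv_inv] at this
      have hcm := e.2.1 _ hmem a (Subgroup.mem_sup_left ha)
      rw [e1] at hcm
      have hδa := hDA' δ hδ a ha
      have e2 : f' * δ⁻¹ * f⁻¹ = (f' * f⁻¹) * δ⁻¹ := by
        rw [mul_assoc, ← hFD f⁻¹ (inv_mem hf) δ⁻¹ (inv_mem hδ), ← mul_assoc]
      rw [e2] at hcm
      have h3 : a * (f' * f⁻¹) = f' * f⁻¹ * a := by
        calc a * (f' * f⁻¹) = a * (f' * f⁻¹ * δ⁻¹) * δ := by group
          _ = f' * f⁻¹ * δ⁻¹ * a * δ := by rw [hcm]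
          _ = f' * f⁻¹ * δ⁻¹ * (δ * a) := by rw [hδa]; group
          _ = f' * f⁻¹ * a := by group
      exact mul_inv_eq_one.1 (eq_one_of_commute hS hA' hA (RankOnePair_symm h) e ha ha1
        (F.mul_mem hf' (F.inv_mem hf)) h3)
  rw [hff] at e1
  obtain ⟨cc, hcc⟩ := chom_surjective hcC (inv_mem ha) (inv_ne_one.2 ha1) ⟨δ, hδ⟩
  set c := (cc : G) with hcdef
  have hcC' : c ∈ C := cc.2
  have e3 : a⁻¹ * c * a * c⁻¹ = δ := by
    have := congrArg Subtype.val hcc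
    simpa [chom] using this
  have hc1 : c ≠ 1 := fun e0 => hδ1 (by rw [← e3, e0]; group)
  by_cases hw : f * c = 1
  · exact eq_of_mem hS hp hF hC hf (eq_inv_of_mul_eq_one_left hw ▸ C.inv_mem hcC') hf1
  exfalso
  have hwfix : a * (f * c) = (f * c) * a := by
    have h1 : a⁻¹ * (f * c) * a = f * c := by
      calc a⁻¹ * (f * c) * a = (a⁻¹ * f * a) * ((a⁻¹ * c * a * c⁻¹) * c) := by group
        _ = f * δ⁻¹ * (δ * c) := by rw [e1, e3]
        _ = f * c := by group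
    calc a * (f * c) = a * (a⁻¹ * (f * c) * a) := by rw [h1]
      _ = _ := by group
  have hwA' : ∀ x ∈ A', (f * c) * x = x * (f * c) := by
    intro x hx
    have hfixA' : conjBy A' (f * c) = A' := by
      refine eq_of_mem hS hp (hS.conj_mem A' hA' _) hA' ?_ ha ha1
      exact ⟨a, ha, by show f * c * a * (f * c)⁻¹ = a; rw [← hwfix, mul_inv_cancel_right]⟩
    have ht : (f * c) * x * (f * c)⁻¹ * x⁻¹ ∈ A' :=
      mul_mem (by have hm : (f * c) * x * (f * c)⁻¹ ∈ conjBy A' (f * c) := ⟨x, hx, rfl⟩; rwa [hfixA'] at hm) (inv_mem hx)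
    refine mul_inv_eq_iff_eq_mul.1 (mul_inv_eq_one.1 ?_)
    by_contra ht1
    have hd : c * x * c⁻¹ * x⁻¹ ∈ D := by
      rw [hDdef, Subgroup.commutator_comm]; exact Subgroup.commutator_mem_commutator hcC' hx
    have he : f * x * f⁻¹ * x⁻¹ ∈ ⁅A', F⁆ := by
      rw [Subgroup.commutator_comm]; exact Subgroup.commutator_mem_commutator hf hx
    have hfd : f * (c * x * c⁻¹ * x⁻¹) = (c * x * c⁻¹ * x⁻¹) * f := hFD f hf _ hd
    have hfe := hEc.2.1 _ he f (Subgroup.mem_sup_right hf)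
    have et : (f * c) * x * (f * c)⁻¹ * x⁻¹ = (c * x * c⁻¹ * x⁻¹) * (f * x * f⁻¹ * x⁻¹) := by
      calc (f * c) * x * (f * c)⁻¹ * x⁻¹ = (f * (c * x * c⁻¹ * x⁻¹)) * (x * f⁻¹ * x⁻¹) := by group
        _ = ((c * x * c⁻¹ * x⁻¹) * f) * (x * f⁻¹ * x⁻¹) := by rw [hfd]
        _ = _ := by group
    rw [et] at ht ht1
    refine hf1 (eq_one_of_commute hS hA' hA (RankOnePair_symm h) hEc ht ht1 hf ?_)
    rw [mul_assoc, hfe, ← mul_assoc, ← hfd, mul_assoc]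
  have hfc : f * c = c * f := by
    rw [hfdef]
    have h1 := hAC α hα c hcC'
    have h2 := (hDC δ hδ c hcC')
    have h1' := hAC α⁻¹ (inv_mem hα) c hcC'
    have h2' := (hDC δ⁻¹ (inv_mem hδ) c hcC')
    calc α * δ * α⁻¹ * δ⁻¹ * c = α * δ * α⁻¹ * (c * δ⁻¹) := by rw [mul_assoc, h2']
      _ = α * δ * (α⁻¹ * c) * δ⁻¹ := by group
      _ = α * (δ * c) * α⁻¹ * δ⁻¹ := by rw [h1']; group
      _ = (α * c) * δ * α⁻¹ * δ⁻¹ := by rw [h2]; group
      _ = _ := by rw [h1]; group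
  have hwm : f * c * (δ * α * δ⁻¹) = α * c := by
    rw [hfc, hfdef]
    calc c * (α * δ * α⁻¹ * δ⁻¹) * (δ * α * δ⁻¹) = c * α := by group
      _ = α * c := (hAC α hα c hcC').symm
  have hne : α * c ≠ 1 := fun e0 => by
    have hCA : C = A := eq_of_mem hS hp hC hA hcC' (eq_inv_of_mul_eq_one_right e0 ▸ A.inv_mem hα) hc1
    subst hCA
    refine not_commute h (bot_of_commute fun x hx y hy => ?_)
    have h4 := commutator_case_commute hS hA' hcC hα (a * x * a⁻¹) (hpt ▸ ⟨x, hx, rfl⟩) (a * y * a⁻¹)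
      (A'.mul_mem (A'.mul_mem ha hy) (A'.inv_mem ha))
    calc x * y = a⁻¹ * ((a * x * a⁻¹) * (a * y * a⁻¹)) * a := by group
      _ = a⁻¹ * ((a * y * a⁻¹) * (a * x * a⁻¹)) * a := by rw [h4]
      _ = y * x := by group
  obtain ⟨M, hM, hmM⟩ := hline _ (mul_mem (Subgroup.mem_sup_left hα) (Subgroup.mem_sup_right hcC')) hne
  have hzδ : f * c * δ = δ * (f * c) := by
    rw [mul_assoc, ← hDC δ hδ c hcC', ← mul_assoc, hFD f hf δ hδ, mul_assoc]
  have hzA : ∀ x ∈ conjBy A δ, f * c * x = x * (f * c) := by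
    rintro _ ⟨x, hx, rfl⟩
    show f * c * (δ * x * δ⁻¹) = δ * x * δ⁻¹ * (f * c)
    have hzx : f * c * x = x * (f * c) := by
      rw [mul_assoc, ← hAC x hx c hcC', ← mul_assoc, hFA f hf x hx, mul_assoc]
    calc f * c * (δ * x * δ⁻¹) = (f * c * δ) * x * δ⁻¹ := by group
      _ = δ * (f * c * x) * δ⁻¹ := by rw [hzδ]; group
      _ = δ * x * (f * c * δ⁻¹) := by rw [hzx]; group
      _ = δ * x * (δ⁻¹ * (f * c * δ)) * δ⁻¹ := by rw [hzδ]; group
      _ = δ * x * δ⁻¹ * (f * c) := by group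
  refine hw (eq_of_mul_mem hS (hS.conj_mem A hA δ) hA' hM ?_ hzA hwA' (a := δ * α * δ⁻¹) ⟨α, hα, rfl⟩
    (fun e0 => hα1 (conj_eq_one_iff.1 e0)) (hwm ▸ hmM)).2
  have hpair := map_conj h δ
  rwa [cB_of_commute (hDA' δ hδ)] at hpair

/-- every member of a line is moved along the whole line by a member -/
theorem line_step {A B : Subgroup G} (hA : A ∈ S) (hB : B ∈ S) (hne : A ≠ B)
    (hAB : ∀ x ∈ A, ∀ y ∈ B, x * y = y * x)
    (hpart : ∀ x ∈ A ⊔ B, x ≠ 1 → ∃ M ∈ S, M ≤ A ⊔ B ∧ x ∈ M) :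
    ∃ M D, M ∈ S ∧ D ∈ S ∧ RootCommutatorCase S A D ∧ ⁅A, D⁆ = M ∧ A ⊔ M = A ⊔ B := by
  obtain ⟨A', hA', h⟩ := hp A hA
  have hLA : ∀ x ∈ A, ∀ y ∈ A ⊔ B, x * y = y * x := by
    intro x hx y hy
    have hle : A ⊔ B ≤ Subgroup.centralizer ({x} : Set G) :=
      sup_le (fun z hz => Subgroup.mem_centralizer_singleton_iff.2 (self_commute hS hA hz hx))
        (fun z hz => Subgroup.mem_centralizer_singleton_iff.2 (hAB x hx z hz).symm)
    exact (Subgroup.mem_centralizer_singleton_iff.1 (hle hy)).symm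
  have key : ∀ M ∈ S, M ≤ A ⊔ B → RootCommutatorCase S A' M →
      RootCommutatorCase S A ⁅A', M⁆ ∧ ⁅A, ⁅A', M⁆⁆ = M := fun M hM hle hc =>
    mover hS hp hA hA' hM h (fun x hx y hy => hLA x hx y (hle hy)) hc fun x hx hx1 => by
      obtain ⟨E, hE, -, hxE⟩ := hpart x (sup_le le_sup_left hle hx) hx1
      exact ⟨E, hE, hxE⟩
  rcases hS.pair A' hA' B hB with e | e | e
  · exfalso
    obtain ⟨a, ha, ha1⟩ := (Subgroup.bot_or_exists_ne_one A).resolve_left (hS.ne_bot A hA)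
    obtain ⟨b, hb, hb1⟩ := (Subgroup.bot_or_exists_ne_one B).resolve_left (hS.ne_bot B hB)
    have hba : b * a ≠ 1 := fun e0 => hne (eq_of_mem hS hp hA hB ha
      (eq_inv_of_mul_eq_one_right e0 ▸ B.inv_mem hb) ha1)
    obtain ⟨M, hM, -, hmM⟩ := hpart _ (mul_mem (Subgroup.mem_sup_right hb) (Subgroup.mem_sup_left ha)) hba
    exact hb1 (eq_of_mul_mem hS hA hA' hM h (fun x hx => (hAB x hx b hb).symm)
      (fun x hx => (commute_of_bot e hx hb).symm) ha ha1 hmM).2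
  · obtain ⟨b, hb, hb1⟩ := (Subgroup.bot_or_exists_ne_one B).resolve_left (hS.ne_bot B hB)
    obtain ⟨a, ha, ha1, hptb⟩ := cl (RankOnePair_symm e) hb hb1
    obtain ⟨α, hα, hα1, hpta⟩ := cr h ha ha1
    -- conjugates of `A'` by `α` and `b` commute
    have hcomm : ∀ x ∈ conjBy A' α, ∀ y ∈ conjBy A' b, x * y = y * x := by
      rw [hptb, ← hpta]
      rintro _ ⟨x, hx, rfl⟩ _ ⟨y, hy, rfl⟩
      show a * x * a⁻¹ * (a * y * a⁻¹) = a * y * a⁻¹ * (a * x * a⁻¹)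
      calc a * x * a⁻¹ * (a * y * a⁻¹) = a * (x * y) * a⁻¹ := by group
        _ = a * (y * x) * a⁻¹ := by rw [hAB x hx y hy]
        _ = _ := by group
    have hnept : conjBy A' α ≠ conjBy A' b := by
      rw [hptb, ← hpta]; exact fun e0 => hne (cB_inj e0)
    have hx1 : α⁻¹ * b ≠ 1 := fun e0 => hnept (by rw [inv_mul_eq_one.1 e0])
    obtain ⟨M, hM, hle, hxM⟩ := hpart _
      (mul_mem (Subgroup.mem_sup_left (inv_mem hα)) (Subgroup.mem_sup_right hb)) hx1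
    have hc : RootCommutatorCase S A' M := by
      rcases hS.pair A' hA' M hM with e' | e' | e'
      · exfalso
        have hfix : conjBy A' (α⁻¹ * b) = A' := cB_of_commute fun x hx => (commute_of_bot e' hx hxM).symm
        exact hnept (by conv_lhs => rw [← hfix]
                        rw [cB_mul, mul_inv_cancel_left])
      · exfalso
        obtain ⟨m, hm, -, hptm⟩ := cl (RankOnePair_symm e') hxM hx1
        refine not_commute e' (bot_of_commute fun x hx y hy => ?_)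
        have h2 : conjBy A' (α⁻¹ * b) = conjBy M m := hptm
        have hy' : m * y * m⁻¹ ∈ conjBy A' (α⁻¹ * b) := h2 ▸ ⟨y, hy, rfl⟩
        rw [mem_cB] at hy'
        have hy'' : α * (m * y * m⁻¹) * α⁻¹ ∈ conjBy A' b := by
          rw [mem_cB]; simpa [mul_assoc] using hy'
        have h4 := hcomm (α * (m * x * m⁻¹) * α⁻¹) ⟨m * x * m⁻¹, A'.mul_mem (A'.mul_mem hm hx) (A'.inv_mem hm), rfl⟩ _ hy''
        calc x * y = m⁻¹ * α⁻¹ * ((α * (m * x * m⁻¹) * α⁻¹) * (α * (m * y * m⁻¹) * α⁻¹)) * α * m := by group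
          _ = m⁻¹ * α⁻¹ * ((α * (m * y * m⁻¹) * α⁻¹) * (α * (m * x * m⁻¹) * α⁻¹)) * α * m := by rw [h4]
          _ = y * x := by group
      · exact e'
    obtain ⟨hcA, hcM⟩ := key M hM hle hc
    refine ⟨M, _, hM, hc.1, hcA, hcM, le_antisymm (sup_le le_sup_left hle) (sup_le le_sup_left ?_)⟩
    have hbmem : b ∈ A ⊔ ⁅A, ⁅A', M⁆⁆ := by
      rw [hcM]
      have := mul_mem (Subgroup.mem_sup_left hα : α ∈ A ⊔ M) (Subgroup.mem_sup_right hxM)
      rwa [mul_inv_cancel_left] at this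
    rcases members_cover hcA hbmem with h' | ⟨δ, hδ, a', ha', ha'1, h'⟩
    · exfalso
      rw [hcM] at h'
      have := eq_of_mem hS hp hB hM hb h' hb1
      subst this
      exact not_both hS hp hB hA' (RankOnePair_symm e) hc
    · have hBeq : B = conjBy A δ := eq_of_mem hS hp hB (hS.conj_mem A hA δ) hb ⟨a', ha', h'.symm⟩ hb1
      rw [hBeq]
      rintro _ ⟨x, hx, rfl⟩
      have h5 : (x * δ * x⁻¹ * δ⁻¹)⁻¹ ∈ M := hcM ▸ inv_mem (Subgroup.commutator_mem_commutator hx hδ)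
      show δ * x * δ⁻¹ ∈ A ⊔ M
      have h6 := mul_mem (Subgroup.mem_sup_right h5 : _ ∈ A ⊔ M) (Subgroup.mem_sup_left hx)
      simpa [mul_assoc] using h6
  · obtain ⟨hcA, hcM⟩ := key B hB le_sup_right e
    exact ⟨B, _, hB, e.1, hcA, hcM, rfl⟩

end Cfsg.Lib.RootSub.Line
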