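import Cfsg.Agent.Lib.RootSub.Line
import Cfsg.Agent.S5029

set_option autoImplicit false

/-! Line partners of abstract root subgroups. -/

namespace Cfsg.Lib.RootSub.LinePartner

open Cfsg Cfsg.Agent
open Cfsg.Lib.RootSub.RankOneLead Cfsg.Lib.RootSub.Commutator Cfsg.Lib.RootSub.Line
open scoped commutatorElement

theorem exists_commutator_line {G : Type*} [Group G] {S : Set (Subgroup G)} (hS : IsRootSubgroupSet S)
    (hp : ∀ A ∈ S, ∃ B ∈ S, IsRankOnePair A B) {A B A2 : Subgroup G} (hA : A ∈ S) (hB : B ∈ S)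
    (h : IsRankOnePair A B) (h2 : A2 ∈ linePartners S A) :
    ∃ C ∈ linePartners S A, RootCommutatorCase S B C ∧ ∃ b ∈ A2, b ≠ 1 ∧ b ∈ A ⊔ C := by
  obtain ⟨⟨hA2, hne, hbot⟩, hcovL⟩ := h2
  have hAB : ∀ x ∈ A, ∀ y ∈ A2, x * y = y * x := fun x hx y hy => commute_of_bot hbot hx hy
  rcases hS.pair B hB A2 hA2 with e | e | e
  · exfalso
    obtain ⟨a, ha, ha1⟩ := (Subgroup.bot_or_exists_ne_one A).resolve_left (hS.ne_bot A hA)
    obtain ⟨b, hb, hb1⟩ := (Subgroup.bot_or_exists_ne_one A2).resolve_left (hS.ne_bot A2 hA2)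
    have hba : b * a ≠ 1 := fun e0 => hne (eq_of_mem hS hp hA2 hA hb
      (eq_inv_of_mul_eq_one_left e0 ▸ A.inv_mem ha) hb1)
    obtain ⟨M, ⟨hM, -⟩, hmM⟩ := hcovL.2.1 _ (mul_mem (Subgroup.mem_sup_right hb) (Subgroup.mem_sup_left ha)) hba
    exact hb1 (eq_of_mul_mem hS hA hB hM h (fun x hx => (hAB x hx b hb).symm)
      (fun x hx => (commute_of_bot e hx hb).symm) ha ha1 hmM).2
  · obtain ⟨b, hb, hb1⟩ := (Subgroup.bot_or_exists_ne_one A2).resolve_left (hS.ne_bot A2 hA2)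
    obtain ⟨a, ha, ha1, hptb⟩ := cl (RankOnePair_symm e) hb hb1
    obtain ⟨α, hα, hα1, hpta⟩ := cr h ha ha1
    have hcomm : ∀ x ∈ conjBy B α, ∀ y ∈ conjBy B b, x * y = y * x := by
      rw [hptb, ← hpta]
      rintro _ ⟨x, hx, rfl⟩ _ ⟨y, hy, rfl⟩
      show a * x * a⁻¹ * (a * y * a⁻¹) = a * y * a⁻¹ * (a * x * a⁻¹)
      calc a * x * a⁻¹ * (a * y * a⁻¹) = a * (x * y) * a⁻¹ := by group
        _ = a * (y * x) * a⁻¹ := by rw [hAB x hx y hy]
        _ = _ := by group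
    have hnept : conjBy B α ≠ conjBy B b := by
      rw [hptb, ← hpta]; exact fun e0 => hne (cB_inj e0).symm
    have hx1 : α⁻¹ * b ≠ 1 := fun e0 => hnept (by rw [inv_mul_eq_one.1 e0])
    obtain ⟨M, ⟨hM, hle⟩, hxM⟩ := hcovL.2.1 _
      (mul_mem (Subgroup.mem_sup_left (inv_mem hα)) (Subgroup.mem_sup_right hb)) hx1
    have hc : RootCommutatorCase S B M := by
      rcases hS.pair B hB M hM with e' | e' | e'
      · exfalso
        have hfix : conjBy B (α⁻¹ * b) = B := cB_of_commute fun x hx => (commute_of_bot e' hx hxM).symm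
        exact hnept (by conv_lhs => rw [← hfix]
                        rw [cB_mul, mul_inv_cancel_left])
      · exfalso
        obtain ⟨m, hm, -, hptm⟩ := cl (RankOnePair_symm e') hxM hx1
        refine not_commute e' (bot_of_commute fun x hx y hy => ?_)
        have h2 : conjBy B (α⁻¹ * b) = conjBy M m := hptm
        have hy' : m * y * m⁻¹ ∈ conjBy B (α⁻¹ * b) := h2 ▸ ⟨y, hy, rfl⟩
        rw [mem_cB] at hy'
        have hy'' : α * (m * y * m⁻¹) * α⁻¹ ∈ conjBy B b := by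
          rw [mem_cB]; simpa [mul_assoc] using hy'
        have h4 := hcomm (α * (m * x * m⁻¹) * α⁻¹) ⟨m * x * m⁻¹, B.mul_mem (B.mul_mem hm hx) (B.inv_mem hm), rfl⟩ _ hy''
        calc x * y = m⁻¹ * α⁻¹ * ((α * (m * x * m⁻¹) * α⁻¹) * (α * (m * y * m⁻¹) * α⁻¹)) * α * m := by group
          _ = m⁻¹ * α⁻¹ * ((α * (m * y * m⁻¹) * α⁻¹) * (α * (m * x * m⁻¹) * α⁻¹)) * α * m := by rw [h4]
          _ = y * x := by group
      · exact e'
    have hAM : ∀ x ∈ A, ∀ y ∈ M, x * y = y * x := by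
      intro x hx y hy
      have hle' : A ⊔ A2 ≤ Subgroup.centralizer ({x} : Set G) :=
        sup_le (fun z hz => Subgroup.mem_centralizer_singleton_iff.2 (self_commute hS hA hz hx))
          (fun z hz => Subgroup.mem_centralizer_singleton_iff.2 (hAB x hx z hz).symm)
      exact (Subgroup.mem_centralizer_singleton_iff.1 (hle' (hle hy))).symm
    obtain ⟨hcA, hcM⟩ := mover hS hp hA hB hM h hAM hc fun x hx hx1 => by
      obtain ⟨E, ⟨hE, -⟩, hxE⟩ := hcovL.2.1 x (sup_le le_sup_left hle hx) hx1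
      exact ⟨E, hE, hxE⟩
    have hiso : ¬ IsIsolatedIn (FAdj S) S A := fun hh => (hh.2 B).1 ⟨hA, hB, h⟩
    have h3 := (S5029.result hS hiso hA hc.1 (by rw [hcM]; exact hM)).2.2.1
    rw [hcM] at h3
    refine ⟨M, ⟨⟨hM, h3.1.2.1.symm, bot_of_commute hAM⟩, ?_⟩, hc, b, hb, hb1, ?_⟩
    swap
    · have := mul_mem (Subgroup.mem_sup_left hα : α ∈ A ⊔ M) (Subgroup.mem_sup_right hxM)
      rwa [mul_inv_cancel_left] at this
    rw [sup_comm]; exact h3.2
  · obtain ⟨b, hb, hb1⟩ := (Subgroup.bot_or_exists_ne_one A2).resolve_left (hS.ne_bot A2 hA2)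
    exact ⟨A2, ⟨⟨hA2, hne, hbot⟩, hcovL⟩, e, b, hb, hb1, Subgroup.mem_sup_right hb⟩


theorem lp_symm {G : Type*} [Group G] {S : Set (Subgroup G)} {A B : Subgroup G} (hA : A ∈ S)
    (h : B ∈ linePartners S A) : A ∈ linePartners S B :=
  ⟨⟨hA, h.1.2.1.symm, by rw [Subgroup.commutator_comm]; exact h.1.2.2⟩, by rw [sup_comm]; exact h.2⟩

theorem lp_conj {G : Type*} [Group G] {S : Set (Subgroup G)} (hS : IsRootSubgroupSet S)
    (hp : ∀ A ∈ S, ∃ B ∈ S, IsRankOnePair A B) {A B : Subgroup G} (h : B ∈ linePartners S A) (g : G) :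
    conjBy B g ∈ linePartners S (conjBy A g) := by
  obtain ⟨⟨hB, hne, hbot⟩, -, hcov, -⟩ := h
  refine ⟨⟨hS.conj_mem B hB g, fun e => hne (cB_inj e), ?_⟩, fun E hE => hE.2, fun x hx hx1 => ?_,
    fun E hE F hF hEF => inf_bot_of_ne hS hp hE.1 hF.1 hEF⟩
  · rw [← Subgroup.map_commutator, hbot, Subgroup.map_bot]
  · rw [← Subgroup.map_sup] at hx
    obtain ⟨x', hx', rfl⟩ := hx
    obtain ⟨E, ⟨hE, hle⟩, hxE⟩ := hcov x' hx' fun e => hx1 (by rw [e, map_one])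
    refine ⟨conjBy E g, ⟨hS.conj_mem E hE g, ?_⟩, x', hxE, rfl⟩
    rw [← Subgroup.map_sup]; exact Subgroup.map_mono hle

theorem lp_of_comm {G : Type*} [Group G] {S : Set (Subgroup G)} (hS : IsRootSubgroupSet S)
    (hp : ∀ A ∈ S, ∃ B ∈ S, IsRankOnePair A B) {A B : Subgroup G} (hA : A ∈ S) (hB : B ∈ S) (hc : ⁅A, B⁆ ∈ S) :
    A ∈ linePartners S ⁅A, B⁆ := by
  obtain ⟨A', hA', h⟩ := hp A hA
  exact (S5029.result hS (fun hh => (hh.2 A').1 ⟨hA, hA', h⟩) hA hB hc).2.2.1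

/-- the move along a line can be reversed -/
theorem back {G : Type*} [Group G] {S : Set (Subgroup G)} (hS : IsRootSubgroupSet S)
    (hp : ∀ A ∈ S, ∃ B ∈ S, IsRankOnePair A B) {X Y D : Subgroup G} (hX : X ∈ S)
    (hY : Y ∈ linePartners S X) (hc : RootCommutatorCase S X D) (he : ⁅X, D⁆ = Y) :
    ∃ E ∈ linePartners S X, ⁅E, Y⁆ = X := by
  obtain ⟨M, D', hM, hD', hc', he', hsup⟩ := line_step hS hp hY.1.1 hX hY.1.2.1
    (fun y hy x hx => (commute_of_bot hY.1.2.2 hx hy).symm) fun x hx hx1 => by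
      rw [sup_comm] at hx ⊢
      obtain ⟨F, ⟨hF, hle⟩, hxF⟩ := hY.2.2.1 x hx hx1
      exact ⟨F, hF, hle, hxF⟩
  obtain ⟨m, hm, hm1⟩ := (Subgroup.bot_or_exists_ne_one M).resolve_left (hS.ne_bot M hM)
  have hm' : m ∈ X ⊔ ⁅X, D⁆ := by
    rw [he, sup_comm, ← hsup]; exact Subgroup.mem_sup_right hm
  rcases members_cover hc hm' with h | ⟨δ, hδ, x, hx, -, h⟩
  · exfalso
    rw [he] at h
    exact ne_comm hS hc' (he'.trans (eq_of_mem hS hp hM hY.1.1 hm h hm1))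
  · have hMX : M = conjBy X δ := eq_of_mem hS hp hM (hS.conj_mem X hX δ) hm ⟨x, hx, h.symm⟩ hm1
    have hfix : conjBy Y δ⁻¹ = Y := cB_of_commute fun y hy =>
      (hc.2.1 y (he.symm ▸ hy) _ (Subgroup.mem_sup_right (inv_mem hδ))).symm
    have hE : ⁅conjBy D' δ⁻¹, Y⁆ = X := by
      conv_lhs => rw [← hfix, ← Subgroup.map_commutator, Subgroup.commutator_comm, he', hMX]
      exact (cB_mul X δ δ⁻¹).trans (by rw [inv_mul_cancel, cB_one])
    refine ⟨_, ?_, hE⟩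
    have hl := lp_of_comm hS hp (hS.conj_mem D' hD' δ⁻¹) hY.1.1 (hE.symm ▸ hX)
    rwa [hE] at hl

end Cfsg.Lib.RootSub.LinePartner
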