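import Cfsg.Agent.Lib.RootSub.RankOne

/-! Quadratic modules of rank one groups. -/

set_option autoImplicit false

namespace Cfsg.Lib.RootSub.Quadratic

open Cfsg RankOne

variable {X : Type*} [Group X] {N : Type*} [AddCommGroup N] [DistribMulAction X N]

/-- The commutator `[N, A]`. -/
def comm (N : Type*) [AddCommGroup N] [DistribMulAction X N] (A : Subgroup X) : AddSubgroup N :=
  AddSubgroup.closure {m | ∃ a ∈ A, ∃ n : N, m = a • n - n}

variable {A B : Subgroup X}

lemma gen_mem {a : X} (ha : a ∈ A) (n : N) : a • n - n ∈ comm N A :=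
  AddSubgroup.subset_closure ⟨a, ha, n, rfl⟩

lemma smul_comm_mem {g : X} (hg : ∀ a ∈ A, g * a * g⁻¹ ∈ B) {u : N} (hu : u ∈ comm N A) : g • u ∈ comm N B := by
  induction hu using AddSubgroup.closure_induction with
  | mem x hx =>
    obtain ⟨a, ha, n, rfl⟩ := hx
    have h := gen_mem (N := N) (hg a ha) (g • n)
    rwa [← mul_smul, inv_mul_cancel_right, mul_smul, ← smul_sub] at h
  | zero => rw [smul_zero]; exact zero_mem _
  | add x y _ _ h1 h2 => rw [smul_add]; exact add_mem h1 h2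
  | neg x _ h1 => rw [smul_neg]; exact neg_mem h1

lemma fix_comm (hq : ∀ a ∈ A, ∀ a' ∈ A, ∀ n : N, a' • (a • n - n) = a • n - n) {a : X} (ha : a ∈ A) {u : N}
    (hu : u ∈ comm N A) : a • u = u := by
  induction hu using AddSubgroup.closure_induction with
  | mem x hx =>
    obtain ⟨a', ha', n, rfl⟩ := hx
    exact hq a' ha' a ha n
  | zero => rw [smul_zero]
  | add x y _ _ h1 h2 => rw [smul_add, h1, h2]
  | neg x _ h1 => rw [smul_neg, h1]

lemma quadratic_conj (hq : ∀ a ∈ A, ∀ a' ∈ A, ∀ n : N, a' • (a • n - n) = a • n - n) (g : X) :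
    ∀ b ∈ conjBy A g, ∀ b' ∈ conjBy A g, ∀ n : N, b' • (b • n - n) = b • n - n := by
  intro b hb b' hb' n
  rw [mem_conjBy] at hb hb'
  have h := congrArg (fun m => g • m) (hq _ hb _ hb' (g⁻¹ • n))
  simpa [smul_sub, mul_smul] using h

lemma mem_of_mem_sup {v : N} (hv : v ∈ comm N A ⊔ comm N B) :
    ∃ u ∈ comm N A, ∃ w ∈ comm N B, v = u + w := by
  obtain ⟨u, hu, w, hw, rfl⟩ := AddSubgroup.mem_sup.1 hv
  exact ⟨u, hu, w, hw, rfl⟩

/-- The kernel on `[N, X]`. -/
def kerOn (N : Type*) [AddCommGroup N] [DistribMulAction X N] (A B : Subgroup X) : Subgroup X where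
  carrier := {x | ∀ v ∈ comm N A ⊔ comm N B, x • v = v}
  one_mem' := fun v _ => one_smul _ v
  mul_mem' := fun {x y} hx hy v hv => by rw [mul_smul, hy v hv, hx v hv]
  inv_mem' := fun {x} hx v hv => by rw [inv_smul_eq_iff, hx v hv]

variable (hA : ∀ a ∈ A, ∀ a' ∈ A, ∀ n : N, a' • (a • n - n) = a • n - n)
  (hB : ∀ b ∈ B, ∀ b' ∈ B, ∀ n : N, b' • (b • n - n) = b • n - n)
  (hgen : A ⊔ B = ⊤)
include hA hB hgen

omit hA hB in
lemma diff_mem (x : X) : ∀ n : N, x • n - n ∈ comm N A ⊔ comm N B := by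
  have hx : x ∈ A ⊔ B := by rw [hgen]; trivial
  rw [← Subgroup.closure_eq A, ← Subgroup.closure_eq B, ← Subgroup.closure_union] at hx
  have hstep : ∀ y, y ∈ A ∨ y ∈ B → ∀ m : N, y • m - m ∈ comm N A ⊔ comm N B := by
    rintro y (hy | hy) m
    · exact AddSubgroup.mem_sup_left (gen_mem hy m)
    · exact AddSubgroup.mem_sup_right (gen_mem hy m)
  induction hx using Subgroup.closure_induction_left with
  | one => simp
  | mul_left y hy z hz ih =>
    intro n
    rw [show (y * z) • n - n = (y • (z • n) - z • n) + (z • n - n) by rw [mul_smul]; abel]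
    exact add_mem (hstep y hy _) (ih n)
  | inv_mul_cancel y hy z hz ih =>
    intro n
    rw [show (y⁻¹ * z) • n - n = (y⁻¹ • (z • n) - z • n) + (z • n - n) by rw [mul_smul]; abel]
    exact add_mem (hstep y⁻¹ (hy.imp A.inv_mem B.inv_mem) _) (ih n)

omit hA hB in
lemma kerOn_normal : (kerOn N A B).Normal := by
  refine ⟨fun x hx g v hv => ?_⟩
  have h : g⁻¹ • v ∈ comm N A ⊔ comm N B := by
    simpa using add_mem (diff_mem (N := N) hgen g⁻¹ v) hv
  rw [mul_smul, mul_smul, hx _ h, smul_inv_smul]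

variable (h : IsRankOnePair A B)
include h

omit hgen in
/-- The basic relation: `(a - 1)(b - 1) = 1` on `[N, A]` modulo what `b - 1` kills. -/
lemma EF {a b : X} (ha : a ∈ A) (hb : b ∈ B) (e : conjBy A b⁻¹ = conjBy B a⁻¹) {u : N} (hu : u ∈ comm N A) :
    (a • (b • u - u) - (b • u - u)) - u ∈ comm N A ⊓ comm N B := by
  have hp : b • u - u ∈ comm N B := gen_mem hb u
  have hp' : b⁻¹ • u - u = -(b • u - u) := by
    have := hB b hb b⁻¹ (inv_mem hb) u
    rw [smul_sub, inv_smul_smul] at this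
    rw [← this]
    abel
  have hw : a • (b⁻¹ • u) ∈ comm N B := by
    rw [← mul_smul]
    refine smul_comm_mem (fun x hx => ?_) hu
    have h1 : b⁻¹ * x * b ∈ conjBy B a⁻¹ := by
      rw [← e, mem_conjBy]
      simpa [mul_assoc] using hx
    rw [mem_conjBy] at h1
    simpa [mul_assoc] using h1
  set p := b • u - u with hpdef
  have h2 : a • (b⁻¹ • u) = u - p - (a • p - p) := by
    rw [show b⁻¹ • u = u - p by rw [sub_eq_add_neg, ← hp']; abel, smul_sub, fix_comm hA ha hu]
    abel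
  refine AddSubgroup.mem_inf.2 ⟨sub_mem (gen_mem ha p) hu, ?_⟩
  have h3 : a • p - p - u = -(a • (b⁻¹ • u)) - p := by rw [h2]; abel
  rw [h3]
  exact sub_mem (neg_mem hw) hp

omit hgen in
lemma EFE {a b : X} (ha : a ∈ A) (hb : b ∈ B) (e : conjBy A b⁻¹ = conjBy B a⁻¹) {u : N} (hu : u ∈ comm N A) :
    b • (a • (b • u - u) - (b • u - u)) - (a • (b • u - u) - (b • u - u)) = b • u - u := by
  have h1 := fix_comm hB hb (AddSubgroup.mem_inf.1 (EF hA hB h ha hb e hu)).2
  rw [smul_sub] at h1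
  linear_combination (norm := abel) h1

/-- Either `X` fixes `[N, X]`, or the kernel there is central. -/
lemma kerOn_le_center (hX : ∃ x y : X, ∃ n : N, y • (x • n - n) ≠ x • n - n) :
    kerOn N A B ≤ Subgroup.center X := by
  have hn := kerOn_normal (N := N) hgen
  rcases normal_dichotomy h hgen (kerOn N A B) with ⟨z, hz, a, ha, e⟩ | hle
  swap
  · exact hle
  exfalso
  set K := kerOn N A B with hK
  have hBK : B ≤ K := by
    intro b hb v hv
    obtain ⟨u, hu, w, hw, rfl⟩ := mem_of_mem_sup hv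
    rw [smul_add, fix_comm hB hb hw]
    congr 1
    have hy : a * b * a⁻¹ ∈ conjBy A z := by
      rw [e, mem_conjBy]
      simpa [mul_assoc] using hb
    rw [mem_conjBy] at hy
    have hinv : ∀ v ∈ comm N A ⊔ comm N B, ∀ g : X, g • v ∈ comm N A ⊔ comm N B := fun v hv g => by
      simpa using add_mem (diff_mem (N := N) hgen g v) hv
    have hu' : u ∈ comm N A ⊔ comm N B := AddSubgroup.mem_sup_left hu
    calc b • u = (a⁻¹ * z * (z⁻¹ * (a * b * a⁻¹) * z) * z⁻¹ * a) • u := by congr 1; group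
      _ = u := by
        rw [mul_smul, mul_smul, mul_smul, mul_smul, fix_comm hA ha hu, K.inv_mem hz u hu', fix_comm hA hy hu, hz u hu',
          fix_comm hA (inv_mem ha) hu]
  obtain ⟨a₁, ha₁, ha₁1⟩ := exists_ne_one h
  obtain ⟨b₁, hb₁, -, e₁⟩ := exists_left h ha₁ ha₁1
  have hAK : A ≤ K := by
    intro x hx
    have h1 : a₁⁻¹ * b₁ * x * (a₁⁻¹ * b₁)⁻¹ ∈ B := by
      have h2 : B = conjBy A (a₁⁻¹ * b₁) := eq_of_conjBy e₁
      rw [h2, mem_conjBy]
      simpa [mul_assoc] using hx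
    simpa [mul_assoc] using hn.conj_mem _ (hBK h1) (a₁⁻¹ * b₁)⁻¹
  obtain ⟨x, y, n, hne⟩ := hX
  have hy : y ∈ K := sup_le hAK hBK (hgen ▸ Subgroup.mem_top y)
  exact hne (hy _ (diff_mem (N := N) hgen x n))

theorem special (hX : ∃ x y : X, ∃ n : N, y • (x • n - n) ≠ x • n - n) : IsSpecialRankOnePair A B := by
  refine ⟨h, fun a ha ha1 b hb hb1 e => ?_⟩
  set c := (a⁻¹ * b⁻¹ * a)⁻¹ * (b⁻¹ * a * b) with hc
  have hcK : c ∈ kerOn N A B := by
    intro v hv
    rw [hc, mul_smul, inv_smul_eq_iff]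
    obtain ⟨u, hu, w, hw, rfl⟩ := mem_of_mem_sup hv
    have hbinv : ∀ m : N, b⁻¹ • m = m - (b • m - m) := by
      intro m
      have := hB b hb b⁻¹ (inv_mem hb) m
      rw [smul_sub, inv_smul_smul] at this
      linear_combination (norm := abel) -this
    have hainv : ∀ m : N, a⁻¹ • m = m - (a • m - m) := by
      intro m
      have := hA a ha a⁻¹ (inv_mem ha) m
      rw [smul_sub, inv_smul_smul] at this
      linear_combination (norm := abel) -this
    have e' : conjBy B a⁻¹ = conjBy A b⁻¹ := e.symm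
    have k1 := EFE hA hB h ha hb e hu
    have k2 := EFE hB hA (RankOnePair_symm h) hb ha e' hw
    have au := fix_comm hA ha hu
    have bw := fix_comm hB hb hw
    have bb : ∀ m : N, b • b • m = b • m + (b • m - m) := fun m => by
      have := hB b hb b hb m
      rw [smul_sub] at this
      linear_combination (norm := abel) this
    have aa : ∀ m : N, a • a • m = a • m + (a • m - m) := fun m => by
      have := hA a ha a ha m
      rw [smul_sub] at this
      linear_combination (norm := abel) this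
    simp only [smul_add, mul_smul, hbinv, hainv, smul_sub, au, bw, aa, bb] at k1 k2 ⊢
    linear_combination (norm := abel) -k1 - k2
  have hcen := kerOn_le_center hA hB hgen h hX hcK
  have hC1 : b⁻¹ * a * b ∈ conjBy A b⁻¹ := by rw [mem_conjBy]; simpa [mul_assoc] using ha
  have hC2 : a⁻¹ * b⁻¹ * a ∈ conjBy A b⁻¹ := by rw [e, mem_conjBy]; simpa [mul_assoc] using hb
  have hcA : c ∈ A := by
    have h1 := mul_mem (inv_mem hC2) hC1
    rw [← hc, mem_conjBy, inv_inv] at h1
    rw [Subgroup.mem_center_iff.1 hcen b, mul_inv_cancel_right] at h1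
    exact h1
  have h1 := eq_one h hcA (mem_normalizer_iff.1 (Subgroup.center_le_normalizer _ hcen))
  rw [hc, inv_mul_eq_one] at h1
  exact h1.symm

theorem exponent (hf : ∀ x : X, (∀ v : N, x • v = v) → x = 1) {p : ℕ} {a₀ : X} (ha₀ : a₀ ∈ A) (ha₀1 : a₀ ≠ 1)
    (hp : a₀ ^ p = 1) {a : X} (ha : a ∈ A) : a ^ p = 1 := by
  have hpow : ∀ x ∈ A, ∀ k : ℕ, ∀ n : N, x ^ k • n - n = k • (x • n - n) := by
    intro x hx k n
    induction k with
    | zero => simp
    | succ k ih =>
      rw [pow_succ', mul_smul, succ_nsmul, ← ih]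
      have := fix_comm hA hx (gen_mem (pow_mem hx k) n)
      rw [smul_sub] at this
      linear_combination (norm := abel) this
  have hzfix : ∀ z ∈ comm N A ⊓ comm N B, ∀ x : X, x • z = z := by
    intro z hz x
    have : A ⊔ B ≤ MulAction.stabilizer X z :=
      sup_le (fun y hy => fix_comm hA hy (AddSubgroup.mem_inf.1 hz).1) (fun y hy => fix_comm hB hy (AddSubgroup.mem_inf.1 hz).2)
    exact this (hgen ▸ Subgroup.mem_top x)
  obtain ⟨b₀, hb₀, -, e₀⟩ := h.cond_left a₀ ha₀ ha₀1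
  have hpu : ∀ u ∈ comm N A, p • u ∈ comm N A ⊓ comm N B := by
    intro u hu
    have h1 := nsmul_mem (EF hA hB h ha₀ hb₀ e₀ hu) p
    rw [nsmul_sub, ← hpow a₀ ha₀ p, hp, one_smul, sub_self, zero_sub] at h1
    exact neg_mem_iff.1 h1
  by_contra hne
  set c := a ^ p with hcdef
  have hcA : c ∈ A := pow_mem ha p
  have hcz : ∀ n : N, c • n - n ∈ comm N A ⊓ comm N B := fun n => by
    rw [hcdef, hpow a ha p n]
    exact hpu _ (gen_mem ha n)
  obtain ⟨b, hb, -, e⟩ := h.cond_left c hcA hne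
  have hUfix : ∀ u ∈ comm N A, ∀ x : X, x • u = u := by
    intro u hu
    refine hzfix u ?_
    have := sub_mem (hcz (b • u - u)) (EF hA hB h hcA hb e hu)
    simpa using this
  obtain ⟨a₁, ha₁, ha₁1⟩ := exists_ne_one h
  obtain ⟨b₁, hb₁, -, e₁⟩ := exists_left h ha₁ ha₁1
  set g := a₁⁻¹ * b₁ with hg
  have hBg : B = conjBy A g := eq_of_conjBy e₁
  have hWfix : ∀ w ∈ comm N B, ∀ x : X, x • w = w := by
    intro w hw x
    have h1 : g⁻¹ • w ∈ comm N A := smul_comm_mem (fun y hy => by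
      rw [hBg, mem_conjBy] at hy
      simpa [mul_assoc] using hy) hw
    have h2 := hUfix _ h1 g
    rw [smul_inv_smul] at h2
    rw [h2]
    exact hUfix _ h1 x
  have hVfix : ∀ v ∈ comm N A ⊔ comm N B, ∀ x : X, x • v = v := by
    intro v hv x
    obtain ⟨u, hu, w, hw, rfl⟩ := mem_of_mem_sup hv
    rw [smul_add, hUfix u hu x, hWfix w hw x]
  have hcomm : ∀ x y : X, x * y = y * x := by
    intro x y
    refine mul_inv_eq_one.1 (hf _ fun v => ?_)
    have h1 := hVfix _ (diff_mem (N := N) hgen y ((y * x)⁻¹ • v)) x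
    have h2 := hVfix _ (diff_mem (N := N) hgen x ((y * x)⁻¹ • v)) y
    rw [smul_sub] at h1 h2
    conv_rhs => rw [← smul_inv_smul (y * x) v]
    rw [mul_smul, mul_smul, mul_smul]
    linear_combination (norm := abel) h1 - h2
  refine ha₁1 (eq_one h ha₁ (mem_normalizer_iff.1 (Subgroup.mem_normalizer_iff.2 fun y => ?_)))
  rw [hcomm a₁ y, mul_inv_cancel_right]

end Cfsg.Lib.RootSub.Quadratic
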