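import Cfsg.Prelude.Def_RootSubgroups

/-! Elementary theory of rank one pairs. -/

set_option autoImplicit false

namespace Cfsg.Lib.RootSub.RankOne

open Cfsg

variable {G : Type*} [Group G] {A B : Subgroup G}

lemma mem_conjBy {g x : G} : x ∈ conjBy A g ↔ g⁻¹ * x * g ∈ A := by
  constructor
  · rintro ⟨y, hy, rfl⟩
    simpa [mul_assoc] using hy
  · intro h
    exact ⟨_, h, by simp [mul_assoc]⟩

lemma conjBy_conjBy (g k : G) : conjBy (conjBy A g) k = conjBy A (k * g) := by
  ext x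
  simp [mem_conjBy, mul_assoc]

@[simp] lemma conjBy_one (A : Subgroup G) : conjBy A 1 = A := by
  ext x
  simp [mem_conjBy]

lemma mem_normalizer_iff {g : G} : g ∈ Subgroup.normalizer (A : Set G) ↔ conjBy A g = A := by
  rw [Subgroup.mem_normalizer_iff]
  constructor
  · intro h
    ext x
    rw [mem_conjBy, h]
    simp [mul_assoc]
  · intro h x
    constructor
    · intro hx
      rw [← h, mem_conjBy]
      simpa [mul_assoc] using hx
    · intro hx
      rw [← h, mem_conjBy] at hx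
      simpa [mul_assoc] using hx

lemma conjBy_self {g : G} (h : g ∈ A) : conjBy A g = A :=
  mem_normalizer_iff.1 (Subgroup.le_normalizer h)

lemma conjBy_inj {C D : Subgroup G} {g : G} : conjBy C g = conjBy D g ↔ C = D := by
  refine ⟨fun h => ?_, fun h => h ▸ rfl⟩
  have h1 := congrArg (fun K : Subgroup G => conjBy K g⁻¹) h
  simpa [conjBy_conjBy] using h1

lemma eq_of_conjBy {C D : Subgroup G} {g k : G} (h : conjBy C g = conjBy D k) : C = conjBy D (g⁻¹ * k) := by
  rw [← conjBy_conjBy, ← h, conjBy_conjBy, inv_mul_cancel, conjBy_one]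

variable (h : IsRankOnePair A B)
include h

lemma exists_left {a : G} (ha : a ∈ A) (ha1 : a ≠ 1) : ∃ b ∈ B, b ≠ 1 ∧ conjBy B a = conjBy A b := by
  obtain ⟨b, hb, hb1, e⟩ := h.cond_left a⁻¹ (inv_mem ha) (inv_ne_one.2 ha1)
  exact ⟨b⁻¹, inv_mem hb, inv_ne_one.2 hb1, by rw [e, inv_inv]⟩

lemma exists_right {b : G} (hb : b ∈ B) (hb1 : b ≠ 1) : ∃ a ∈ A, a ≠ 1 ∧ conjBy A b = conjBy B a :=
  exists_left (RankOnePair_symm h) hb hb1

lemma eq_one {a : G} (ha : a ∈ A) (hB : conjBy B a = B) : a = 1 := by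
  by_contra ha1
  obtain ⟨b, hb, -, e⟩ := exists_left h ha ha1
  rw [hB] at e
  have h1 := congrArg (fun K : Subgroup G => conjBy K b⁻¹) e
  simp only [conjBy_self (inv_mem hb), conjBy_conjBy, inv_mul_cancel, conjBy_one] at h1
  exact h.ne h1.symm

lemma inf_normalizer : A ⊓ Subgroup.normalizer (B : Set G) = ⊥ := by
  rw [eq_bot_iff]
  rintro a ⟨ha, hn⟩
  exact Subgroup.mem_bot.2 (eq_one h ha (mem_normalizer_iff.1 hn))

lemma exists_ne_one : ∃ a ∈ A, a ≠ 1 := by
  by_contra! hA
  obtain ⟨b, hb, hb1⟩ : ∃ b ∈ B, b ≠ 1 := by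
    by_contra! hB
    exact h.ne (le_antisymm (fun x hx => by rw [hA x hx]; exact B.one_mem) (fun x hx => by rw [hB x hx]; exact A.one_mem))
  obtain ⟨a, ha, ha1, -⟩ := exists_right h hb hb1
  exact ha1 (hA a ha)

lemma conjBy_left_mem {x : G} (hx : x ∈ A ⊔ B) : conjBy A x = A ∨ ∃ a ∈ A, conjBy A x = conjBy B a := by
  rw [← Subgroup.closure_eq A, ← Subgroup.closure_eq B, ← Subgroup.closure_union] at hx
  induction hx using Subgroup.closure_induction_left with
  | one => simp
  | mul_left y hy z hz ih =>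
    rw [← conjBy_conjBy]
    rcases ih with e | ⟨a, ha, e⟩
    · rw [e]
      rcases hy with hy | hy
      · exact Or.inl (conjBy_self hy)
      · by_cases hy1 : y = 1
        · simp [hy1]
        · obtain ⟨a, ha, -, e⟩ := exists_right h hy hy1
          exact Or.inr ⟨a, ha, e⟩
    · rw [e]
      rcases hy with hy | hy
      · exact Or.inr ⟨y * a, mul_mem hy ha, conjBy_conjBy _ _⟩
      · by_cases ha1 : a = 1
        · exact Or.inr ⟨1, A.one_mem, by rw [ha1, conjBy_one, conjBy_self hy]⟩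
        · obtain ⟨b, hb, -, e'⟩ := exists_left h ha ha1
          rw [e', conjBy_conjBy]
          by_cases hyb : y * b = 1
          · simp [hyb]
          · obtain ⟨a', ha', -, e''⟩ := exists_right h (mul_mem hy hb) hyb
            exact Or.inr ⟨a', ha', e''⟩
  | inv_mul_cancel y hy z hz ih =>
    rw [← conjBy_conjBy]
    rcases ih with e | ⟨a, ha, e⟩
    · rw [e]
      rcases hy with hy | hy
      · exact Or.inl (conjBy_self (inv_mem hy))
      · by_cases hy1 : y = 1
        · simp [hy1]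
        · obtain ⟨a, ha, -, e⟩ := exists_right h (inv_mem hy) (inv_ne_one.2 hy1)
          exact Or.inr ⟨a, ha, e⟩
    · rw [e]
      rcases hy with hy | hy
      · exact Or.inr ⟨y⁻¹ * a, mul_mem (inv_mem hy) ha, conjBy_conjBy _ _⟩
      · by_cases ha1 : a = 1
        · exact Or.inr ⟨1, A.one_mem, by rw [ha1, conjBy_one, conjBy_self (inv_mem hy)]⟩
        · obtain ⟨b, hb, -, e'⟩ := exists_left h ha ha1
          rw [e', conjBy_conjBy]
          by_cases hyb : y⁻¹ * b = 1
          · simp [hyb]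
          · obtain ⟨a', ha', -, e''⟩ := exists_right h (mul_mem (inv_mem hy) hb) hyb
            exact Or.inr ⟨a', ha', e''⟩

lemma regular {a a' : G} (ha : a ∈ A) (ha' : a' ∈ A) (e : conjBy (conjBy B a') a = conjBy B a') : a = 1 := by
  rw [conjBy_conjBy] at e
  have h1 := eq_of_conjBy e.symm
  have h2 := eq_one h (mul_mem (inv_mem ha') (mul_mem ha ha')) h1.symm
  have h3 : a'⁻¹ * (a * a') = 1 := h2
  rw [inv_mul_eq_one] at h3
  exact mul_eq_right.1 h3.symm

lemma left_ne {a : G} (ha : a ∈ A) : conjBy B a ≠ A := by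
  intro e
  have h1 := congrArg (fun K : Subgroup G => conjBy K a⁻¹) e
  simp only [conjBy_conjBy, inv_mul_cancel, conjBy_one, conjBy_self (inv_mem ha)] at h1
  exact h.ne h1.symm

lemma inf_conjBy {a z : G} (ha : a ∈ A) (hz : z ∈ A) (hz' : z ∈ conjBy B a) : z = 1 :=
  regular h hz ha (conjBy_self hz')

lemma comm_not_normalizer {a b : G} (ha : a ∈ A) (ha1 : a ≠ 1) (hb : b ∈ B) (hb1 : b ≠ 1) :
    conjBy B (a * b * a⁻¹ * b⁻¹) ≠ B := by
  intro e
  have e1 : conjBy B (a * b * a⁻¹) = B := by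
    rw [← conjBy_conjBy, conjBy_self (inv_mem hb)] at e
    exact e
  obtain ⟨b₁, hb₁, -, e2⟩ := exists_left h (inv_mem ha) (inv_ne_one.2 ha1)
  have e3 : conjBy (conjBy B a⁻¹) b = conjBy B a⁻¹ := by
    refine (conjBy_inj (g := a)).1 ?_
    rw [conjBy_conjBy, conjBy_conjBy, conjBy_conjBy, mul_inv_cancel, conjBy_one]
    simpa only [mul_assoc] using e1
  rw [e2] at e3
  exact hb1 (regular (RankOnePair_symm h) hb hb₁ e3)

omit h

/-- A root element of the form `z * a`, with `z` centralising the rank one group, is `a`. -/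
theorem root_element {S : Set (Subgroup G)} (hS : IsRootSubgroupSet S) (hB : B ∈ S) (h : IsRankOnePair A B)
    {z a : G} (hz : z ∈ Subgroup.centralizer ((A ⊔ B : Subgroup G) : Set G)) (ha : a ∈ A) (ha1 : a ≠ 1)
    {E : Subgroup G} (hE : E ∈ S) (hzE : z * a ∈ E) : z = 1 ∧ E = A := by
  have hzc : ∀ x ∈ A ⊔ B, x * z = z * x := fun x hx => hz x hx
  have hzfix : ∀ x ∈ A ⊔ B, ∀ C : Subgroup G, C ≤ A ⊔ B → conjBy C z = C := by
    intro x _ C hC
    ext y
    rw [mem_conjBy]
    constructor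
    · intro hy
      have := hzc _ (hC hy)
      have hy' : y = z⁻¹ * y * z := by
        calc y = z * (z⁻¹ * y * z) * z⁻¹ := by group
          _ = z⁻¹ * y * z * z * z⁻¹ := by rw [← this]
          _ = z⁻¹ * y * z := by group
      rwa [← hy'] at hy
    · intro hy
      rwa [mul_assoc, hzc _ (hC hy), inv_mul_cancel_left]
  have hAle : A ≤ A ⊔ B := le_sup_left
  have hBle : B ≤ A ⊔ B := le_sup_right
  have hza : z * a = a * z := (hzc a (hAle ha)).symm
  obtain ⟨b, hb, hb1⟩ := exists_ne_one (RankOnePair_symm h)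
  have hconj : conjBy B (z * a) = conjBy B a := by
    rw [hza, ← conjBy_conjBy, hzfix 1 (one_mem _) B hBle]
  rcases hS.pair E hE B hB with h0 | h0 | h0
  · exfalso
    apply ha1
    refine eq_one h ha ?_
    rw [← hconj]
    refine mem_normalizer_iff.1 (Subgroup.centralizer_le_normalizer _ ?_)
    intro x hx
    exact Subgroup.mem_centralizer_iff.1 (Subgroup.commutator_eq_bot_iff_le_centralizer.1 h0 hzE) x hx
  · have hd1 : z * a ≠ 1 := by
      intro e
      have : conjBy B a = B := by rw [← hconj, e, conjBy_one]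
      exact ha1 (eq_one h ha this)
    obtain ⟨β, hβ, -, e1⟩ := exists_left h0 hzE hd1
    obtain ⟨β', hβ', -, e2⟩ := exists_left h ha ha1
    have e3 : E = conjBy A (β⁻¹ * β') := eq_of_conjBy (by rw [← e1, hconj, e2])
    by_cases hγ : β⁻¹ * β' = 1
    · rw [hγ, conjBy_one] at e3
      subst e3
      refine ⟨?_, rfl⟩
      have hzA : z ∈ E := by simpa using mul_mem hzE (inv_mem ha)
      exact eq_one h hzA (hzfix 1 (one_mem _) B hBle)
    · exfalso
      obtain ⟨a', ha', -, e4⟩ := exists_right h (mul_mem (inv_mem hβ) hβ') hγ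
      rw [e4] at e3
      have hEle : E ≤ A ⊔ B := by
        rw [e3]
        intro y hy
        rw [mem_conjBy] at hy
        have := mul_mem (mul_mem (hAle ha') (hBle hy)) (inv_mem (hAle ha'))
        simpa [mul_assoc] using this
      have e5 : conjBy E a = E := by
        conv_rhs => rw [← conjBy_self hzE, ← conjBy_conjBy]
        have hfix : conjBy E a ≤ A ⊔ B := by
          intro y hy
          rw [mem_conjBy] at hy
          have := mul_mem (mul_mem (hAle ha) (hEle hy)) (inv_mem (hAle ha))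
          simpa [mul_assoc] using this
        rw [hzfix 1 (one_mem _) _ hfix]
      rw [e3] at e5
      exact ha1 (regular h ha ha' e5)
  · exfalso
    refine comm_not_normalizer h ha ha1 hb hb1 (mem_normalizer_iff.1 (Subgroup.centralizer_le_normalizer _ ?_))
    intro x hx
    have hmem : z * a * b * (z * a)⁻¹ * b⁻¹ ∈ ⁅E, B⁆ := Subgroup.commutator_mem_commutator hzE hb
    have e : z * a * b * (z * a)⁻¹ * b⁻¹ = a * b * a⁻¹ * b⁻¹ := by
      have h2 : a * b * a⁻¹ * z = z * (a * b * a⁻¹) := hzc _ (mul_mem (mul_mem (hAle ha) (hBle hb)) (inv_mem (hAle ha)))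
      calc z * a * b * (z * a)⁻¹ * b⁻¹ = z * (a * b * a⁻¹) * z⁻¹ * b⁻¹ := by group
        _ = a * b * a⁻¹ * z * z⁻¹ * b⁻¹ := by rw [h2]
        _ = a * b * a⁻¹ * b⁻¹ := by group
    rw [e] at hmem
    exact (h0.2.1 _ hmem x (Subgroup.mem_sup_right hx)).symm

/-- A normal subgroup of a rank one group moves `A` or is central. -/
theorem normal_dichotomy (h : IsRankOnePair A B) (hgen : A ⊔ B = ⊤) (N : Subgroup G) [N.Normal] :
    (∃ z ∈ N, ∃ a ∈ A, conjBy A z = conjBy B a) ∨ N ≤ Subgroup.center G := by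
  by_cases hfix : ∀ z ∈ N, conjBy A z = A
  swap
  · push Not at hfix
    obtain ⟨z, hz, hne⟩ := hfix
    rcases conjBy_left_mem h (show z ∈ A ⊔ B by rw [hgen]; trivial) with e | ⟨a, ha, e⟩
    · exact absurd e hne
    · exact Or.inl ⟨z, hz, a, ha, e⟩
  right
  obtain ⟨a, ha, ha1⟩ := exists_ne_one h
  obtain ⟨b, hb, -, eb⟩ := exists_left h ha ha1
  have hfix' : ∀ z ∈ N, conjBy B z = B := by
    intro z hz
    have eB : B = conjBy A (a⁻¹ * b) := eq_of_conjBy eb
    rw [eB, conjBy_conjBy,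
      show z * (a⁻¹ * b) = (a⁻¹ * b) * ((a⁻¹ * b)⁻¹ * z * (a⁻¹ * b)) by group, ← conjBy_conjBy,
      hfix _ (by simpa [mul_assoc] using ‹N.Normal›.conj_mem z hz (a⁻¹ * b)⁻¹)]
  intro z hz
  have key : ∀ (P Q : Subgroup G), IsRankOnePair P Q → conjBy P z = P → (∀ w ∈ N, conjBy Q w = Q) →
      ∀ x ∈ P, x * z = z * x := by
    intro P Q hPQ hP hQ x hx
    have h1 : z * x * z⁻¹ * x⁻¹ ∈ N := by
      simpa [mul_assoc] using mul_mem hz (‹N.Normal›.conj_mem z⁻¹ (inv_mem hz) x)
    have h2 : z * x * z⁻¹ * x⁻¹ ∈ P := by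
      refine mul_mem ?_ (inv_mem hx)
      rw [← hP, mem_conjBy]
      simpa [mul_assoc] using hx
    have h3 := eq_one hPQ h2 (hQ _ h1)
    rw [mul_inv_eq_one, mul_inv_eq_iff_eq_mul] at h3
    exact h3.symm
  rw [← Subgroup.centralizer_univ, ← Subgroup.coe_top, ← hgen, Subgroup.mem_centralizer_iff]
  intro x hx
  have hle : A ⊔ B ≤ Subgroup.centralizer ({z} : Set G) :=
    sup_le (fun x hx => Subgroup.mem_centralizer_singleton_iff.2 (key A B h (hfix z hz) hfix' x hx))
      (fun x hx => Subgroup.mem_centralizer_singleton_iff.2 (key B A (RankOnePair_symm h) (hfix' z hz) hfix x hx))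
  exact Subgroup.mem_centralizer_singleton_iff.1 (hle hx)

end Cfsg.Lib.RootSub.RankOne
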