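import Cfsg.Prelude.Def_RootSubgroups

set_option autoImplicit false

/-! Elementary theory of rank one pairs and sets of abstract root subgroups. -/

namespace Cfsg.Lib.RootSub.RankOneLead

open Cfsg
open scoped commutatorElement

variable {G : Type*} [Group G]

theorem cB_mul (A : Subgroup G) (x y : G) : conjBy (conjBy A x) y = conjBy A (y * x) := by
  rw [conjBy, conjBy, conjBy, Subgroup.map_map]
  congr 1
  ext z; simp [mul_assoc]

theorem cB_one (A : Subgroup G) : conjBy A (1 : G) = A := by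
  ext z; simp

theorem mem_cB {A : Subgroup G} {g x : G} : x ∈ conjBy A g ↔ g⁻¹ * x * g ∈ A := by
  rw [conjBy, Subgroup.mem_map_equiv]; simp

theorem cB_mem_self {A : Subgroup G} {a : G} (ha : a ∈ A) : conjBy A a = A := by
  ext x; rw [mem_cB]
  refine ⟨fun h => ?_, fun h => A.mul_mem (A.mul_mem (A.inv_mem ha) h) ha⟩
  have := A.mul_mem (A.mul_mem ha h) (A.inv_mem ha)
  simpa [mul_assoc] using this

theorem cB_inj {A C : Subgroup G} {g : G} (h : conjBy A g = conjBy C g) : A = C := by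
  have := congrArg (fun K => conjBy K g⁻¹) h
  simpa [cB_mul, cB_one] using this

theorem eq_cB_inv {A C : Subgroup G} {g : G} (h : conjBy A g = C) : A = conjBy C g⁻¹ := by
  rw [← h, cB_mul, inv_mul_cancel, cB_one]

theorem normalizer_iff {A : Subgroup G} {g : G} : g ∈ Subgroup.normalizer (A : Set G) ↔ conjBy A g = A := by
  rw [Subgroup.mem_normalizer_iff]
  constructor
  · intro h; ext x; rw [mem_cB, h]; simp [mul_assoc]
  · intro h x
    conv_rhs => rw [← h, mem_cB]
    simp [mul_assoc]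

theorem cB_of_commute {A : Subgroup G} {g : G} (h : ∀ x ∈ A, g * x = x * g) : conjBy A g = A := by
  have key : ∀ x, x ∈ A → g⁻¹ * x * g = x := fun x hx => by rw [mul_assoc, ← h x hx, inv_mul_cancel_left]
  ext x; rw [mem_cB]
  refine ⟨fun hx => ?_, fun hx => by rw [key x hx]; exact hx⟩
  have h1 := h _ hx
  have : x = g⁻¹ * x * g := by
    have h2 : g⁻¹ * x * g * g = g * (g⁻¹ * x * g) := h1.symm
    rw [mul_assoc g⁻¹ x g, mul_inv_cancel_left] at h2
    have h3 := mul_right_cancel h2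
    rw [← mul_assoc] at h3
    exact h3.symm
  rwa [this]

theorem commute_of_bot {A C : Subgroup G} (h : ⁅A, C⁆ = ⊥) {a c : G} (ha : a ∈ A) (hc : c ∈ C) : a * c = c * a :=
  ((Subgroup.commutator_eq_bot_iff_le_centralizer.1 h) ha c hc).symm

theorem bot_of_commute {A C : Subgroup G} (h : ∀ a ∈ A, ∀ c ∈ C, a * c = c * a) : ⁅A, C⁆ = ⊥ :=
  Subgroup.commutator_eq_bot_iff_le_centralizer.2 fun a ha c hc => (h a ha c hc).symm

section Pair
variable {A B : Subgroup G} (h : IsRankOnePair A B)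
include h

theorem cl {a : G} (ha : a ∈ A) (h1 : a ≠ 1) : ∃ b ∈ B, b ≠ 1 ∧ conjBy B a = conjBy A b := by
  obtain ⟨b, hb, hb1, e⟩ := h.cond_left a⁻¹ (A.inv_mem ha) (inv_ne_one.2 h1)
  exact ⟨b⁻¹, B.inv_mem hb, inv_ne_one.2 hb1, by rw [e, inv_inv]⟩

theorem cr {b : G} (hb : b ∈ B) (h1 : b ≠ 1) : ∃ a ∈ A, a ≠ 1 ∧ conjBy A b = conjBy B a :=
  cl (RankOnePair_symm h) hb h1

theorem no_norm {a : G} (ha : a ∈ A) (e : conjBy B a = B) : a = 1 := by
  by_contra h1
  obtain ⟨b, hb, -, e'⟩ := cl h ha h1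
  rw [e] at e'
  exact h.ne (cB_inj (e'.symm.trans (cB_mem_self hb).symm))

theorem ne_bot_left : A ≠ ⊥ := by
  intro hA
  by_cases hB : B = ⊥
  · exact h.ne (hA.trans hB.symm)
  obtain ⟨b, hb, hb1⟩ := (Subgroup.bot_or_exists_ne_one B).resolve_left hB
  obtain ⟨a, ha, ha1, -⟩ := cr h hb hb1
  rw [hA] at ha
  exact ha1 ha

theorem not_commute : ⁅A, B⁆ ≠ ⊥ := fun hc => by
  obtain ⟨a, ha, ha1⟩ := (Subgroup.bot_or_exists_ne_one A).resolve_left (ne_bot_left h)
  exact ha1 (no_norm h ha (cB_of_commute fun x hx => commute_of_bot hc ha hx))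

theorem inf_bot : A ⊓ B = ⊥ := by
  rw [eq_bot_iff]
  exact fun x hx => no_norm h hx.1 (cB_mem_self hx.2)

theorem commute_elt {a b : G} (ha : a ∈ A) (hb : b ∈ B) (he : a * b = b * a) : a = 1 ∨ b = 1 := by
  by_cases ha1 : a = 1
  · exact Or.inl ha1
  right
  obtain ⟨b0, hb0, -, e⟩ := cl h ha ha1
  have h1 : b ∈ conjBy B a := by
    rw [mem_cB, mul_assoc, ← he, inv_mul_cancel_left]; exact hb
  rw [e, mem_cB] at h1
  have h2 : b0⁻¹ * b * b0 ∈ A ⊓ B := ⟨h1, B.mul_mem (B.mul_mem (B.inv_mem hb0) hb) hb0⟩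
  rw [inf_bot h, Subgroup.mem_bot] at h2
  calc b = b0 * (b0⁻¹ * b * b0) * b0⁻¹ := by group
    _ = 1 := by rw [h2]; group

theorem map_conj (g : G) : IsRankOnePair (conjBy A g) (conjBy B g) := by
  haveI := h.nilpotent_left
  haveI := h.nilpotent_right
  refine ⟨fun e => h.ne (cB_inj e), ?_, ?_, ?_, ?_⟩
  · exact Group.nilpotent_of_mulEquiv (A.equivMapOfInjective _ (MulAut.conj g).injective)
  · exact Group.nilpotent_of_mulEquiv (B.equivMapOfInjective _ (MulAut.conj g).injective)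
  · rintro _ ⟨a, ha, rfl⟩ h1
    obtain ⟨b, hb, hb1, e⟩ := h.cond_left a ha (fun e => h1 (by simp [e]))
    refine ⟨_, ⟨b, hb, rfl⟩, by simpa using hb1, ?_⟩
    have e1 : ((MulAut.conj g).toMonoidHom b)⁻¹ * g = g * b⁻¹ := by simp [mul_assoc]
    have e2 : ((MulAut.conj g).toMonoidHom a)⁻¹ * g = g * a⁻¹ := by simp [mul_assoc]
    rw [cB_mul, cB_mul, e1, e2, ← cB_mul, e, cB_mul]
  · rintro _ ⟨b, hb, rfl⟩ h1
    obtain ⟨a, ha, ha1, e⟩ := h.cond_right b hb (fun e => h1 (by simp [e]))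
    refine ⟨_, ⟨a, ha, rfl⟩, by simpa using ha1, ?_⟩
    have e1 : ((MulAut.conj g).toMonoidHom b)⁻¹ * g = g * b⁻¹ := by simp [mul_assoc]
    have e2 : ((MulAut.conj g).toMonoidHom a)⁻¹ * g = g * a⁻¹ := by simp [mul_assoc]
    rw [cB_mul, cB_mul, e1, e2, ← cB_mul, e, cB_mul]

omit h in
theorem left_mem : A ∈ unipotentSubgroups A B := ⟨1, one_mem _, (cB_one A).symm⟩

omit h in
theorem mem_conj {C : Subgroup G} (hC : C ∈ unipotentSubgroups A B) {x : G} (hx : x ∈ A ⊔ B) :
    conjBy C x ∈ unipotentSubgroups A B := by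
  obtain ⟨y, hy, rfl⟩ := hC
  exact ⟨x * y, mul_mem hx hy, cB_mul _ _ _⟩

theorem right_mem : B ∈ unipotentSubgroups A B := by
  obtain ⟨a, ha, ha1⟩ := (Subgroup.bot_or_exists_ne_one A).resolve_left (ne_bot_left h)
  obtain ⟨b, hb, -, e⟩ := cl h ha ha1
  exact ⟨a⁻¹ * b, mul_mem (inv_mem (Subgroup.mem_sup_left ha)) (Subgroup.mem_sup_right hb),
    by rw [eq_cB_inv e, cB_mul]⟩

/-- the points are `A` and the `A`-conjugates of `B` -/
theorem mem_iff {C : Subgroup G} :
    C ∈ unipotentSubgroups A B ↔ C = A ∨ ∃ a ∈ A, C = conjBy B a := by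
  refine ⟨?_, ?_⟩
  · rintro ⟨x, hx, rfl⟩
    let P : Subgroup G → Prop := fun C => C = A ∨ ∃ a ∈ A, C = conjBy B a
    have hPA : ∀ a ∈ A, ∀ C, P C → P (conjBy C a) := by
      rintro a ha C (rfl | ⟨a', ha', rfl⟩)
      · exact Or.inl (cB_mem_self ha)
      · exact Or.inr ⟨a * a', mul_mem ha ha', cB_mul _ _ _⟩
    have hPb : ∀ b ∈ B, P (conjBy A b) := by
      intro b hb
      by_cases hb1 : b = 1
      · subst hb1; exact Or.inl (cB_one A)
      · obtain ⟨a, ha, -, e⟩ := cr h hb hb1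
        exact Or.inr ⟨a, ha, e⟩
    have hPB : ∀ b ∈ B, ∀ C, P C → P (conjBy C b) := by
      rintro b hb C (rfl | ⟨a, ha, rfl⟩)
      · exact hPb b hb
      · by_cases ha1 : a = 1
        · subst ha1
          exact Or.inr ⟨1, one_mem _, by rw [cB_one, cB_mem_self hb]⟩
        · obtain ⟨b', hb', -, e⟩ := cl h ha ha1
          rw [e, cB_mul]
          exact hPb _ (mul_mem hb hb')
    have : ∀ y ∈ A ⊔ B, ∀ C, P C → P (conjBy C y) := by
      intro y hy
      rw [Subgroup.sup_eq_closure] at hy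
      induction hy using Subgroup.closure_induction'' with
      | mem z hz => rcases hz with hz | hz
                    · exact hPA z hz
                    · exact hPB z hz
      | inv_mem z hz => rcases hz with hz | hz
                        · exact hPA _ (inv_mem hz)
                        · exact hPB _ (inv_mem hz)
      | one => intro C hC; rw [cB_one]; exact hC
      | mul z z' _ _ h1 h2 => intro C hC; rw [← cB_mul]; exact h1 _ (h2 _ hC)
    exact this x hx A (Or.inl rfl)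
  · rintro (rfl | ⟨a, ha, rfl⟩)
    · exact left_mem
    · exact mem_conj (right_mem h) (Subgroup.mem_sup_left ha)

theorem two_transitive {C D : Subgroup G} (hC : C ∈ unipotentSubgroups A B) (hD : D ∈ unipotentSubgroups A B)
    (hne : C ≠ D) : ∃ x ∈ A ⊔ B, conjBy A x = C ∧ conjBy B x = D := by
  obtain ⟨x, hx, rfl⟩ := hC
  have h1 := mem_conj hD (inv_mem hx)
  rcases (mem_iff h).1 h1 with e | ⟨a, ha, e⟩
  · exact absurd (by rw [eq_cB_inv e, inv_inv]) hne
  · refine ⟨x * a, mul_mem hx (Subgroup.mem_sup_left ha), by rw [← cB_mul, cB_mem_self ha], ?_⟩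
    rw [← cB_mul, ← e, cB_mul, mul_inv_cancel, cB_one]

theorem pair_points {C D : Subgroup G} (hC : C ∈ unipotentSubgroups A B) (hD : D ∈ unipotentSubgroups A B)
    (hne : C ≠ D) : IsRankOnePair C D := by
  obtain ⟨x, -, rfl, rfl⟩ := two_transitive h hC hD hne
  exact map_conj h x

end Pair

section RootSet
variable {S : Set (Subgroup G)} (hS : IsRootSubgroupSet S)
include hS

theorem self_commute {A : Subgroup G} (hA : A ∈ S) {x y : G} (hx : x ∈ A) (hy : y ∈ A) : x * y = y * x := by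
  haveI := hS.commutative A hA
  exact congrArg Subtype.val (mul_comm' (⟨x, hx⟩ : A) ⟨y, hy⟩)

theorem commutator_case_commute {B C : Subgroup G} (hB : B ∈ S) (hc : RootCommutatorCase S B C) {c : G}
    (hcC : c ∈ C) : ∀ x ∈ conjBy B c, ∀ b ∈ B, x * b = b * x := by
  rintro _ ⟨y, hy, rfl⟩ b hb
  show c * y * c⁻¹ * b = b * (c * y * c⁻¹)
  have h0 : ⁅y, c⁆⁻¹ ∈ ⁅B, C⁆ := inv_mem (Subgroup.commutator_mem_commutator hy hcC)
  have e : c * y * c⁻¹ = ⁅y, c⁆⁻¹ * y := by rw [commutatorElement_def]; group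
  have h1 := hc.2.1 _ h0 b (Subgroup.mem_sup_left hb)
  rw [e, mul_assoc, self_commute hS hB hy hb, ← mul_assoc, h1, mul_assoc]

theorem eq_of_mul_mem {A B C : Subgroup G} (hA : A ∈ S) (hB : B ∈ S) (hC : C ∈ S) (h : IsRankOnePair A B)
    {z : G} (hzA : ∀ x ∈ A, z * x = x * z) (hzB : ∀ x ∈ B, z * x = x * z)
    {a : G} (ha : a ∈ A) (ha1 : a ≠ 1) (hc : z * a ∈ C) : C = A ∧ z = 1 := by
  have hzB' : ∀ g : G, conjBy B (z * g) = conjBy (conjBy B g) z := fun g => (cB_mul _ _ _).symm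
  have hcB : conjBy B (z * a) = conjBy B a := by
    have : z * a = a * z := hzA a ha
    rw [this, ← cB_mul, cB_of_commute hzB]
  have hcA : ∀ x ∈ A, z * a * x = x * (z * a) := fun x hx => by
    rw [mul_assoc, self_commute hS hA ha hx, ← mul_assoc, hzA x hx, mul_assoc]
  have hne : conjBy B a ≠ B := fun e => ha1 (no_norm h ha e)
  have hc1 : z * a ≠ 1 := fun e => hne (by rw [← hcB, e, cB_one])
  have hcomm : ⁅A, C⁆ = ⊥ := by
    rcases hS.pair A hA C hC with e | e | e
    · exact e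
    · exact absurd (no_norm (RankOnePair_symm e) hc (cB_of_commute hcA)) hc1
    · exfalso
      refine hS.ne_bot _ e.1 ?_
      rw [← e.2.2.2 _ hc hc1, Subgroup.closure_eq_bot_iff]
      rintro _ ⟨x, hx, rfl⟩
      show x * (z * a) * x⁻¹ * (z * a)⁻¹ = 1
      rw [← hcA x hx, mul_inv_cancel_right, mul_inv_cancel]
  obtain ⟨b0, hb0, -, e0⟩ := cl h ha ha1
  rcases hS.pair B hB C hC with e | e | e
  · exact absurd (hcB ▸ cB_of_commute fun x hx => (commute_of_bot e hx hc).symm) hne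
  · obtain ⟨b', hb', -, e'⟩ := cr e hc hc1
    rw [hcB, e0] at e'
    have hCeq : C = conjBy A (b'⁻¹ * b0) := by
      rw [← cB_mul]; exact eq_cB_inv e'.symm
    by_cases hβ : b'⁻¹ * b0 = 1
    · rw [hβ, cB_one] at hCeq
      refine ⟨hCeq, ?_⟩
      have hzmem : z ∈ A := by
        rw [hCeq] at hc
        simpa using A.mul_mem hc (A.inv_mem ha)
      exact no_norm h hzmem (cB_of_commute hzB)
    · exfalso
      obtain ⟨a1, ha1', -, e1⟩ := cr h (B.mul_mem (B.inv_mem hb') hb0) hβ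
      refine not_commute h (bot_of_commute fun x hx y hy => ?_)
      have hy' : a1 * y * a1⁻¹ ∈ C := by
        rw [hCeq, e1, mem_cB]; simpa [mul_assoc] using hy
      have h2 := commute_of_bot hcomm (mul_mem (mul_mem ha1' hx) (inv_mem ha1')) hy'
      calc x * y = a1⁻¹ * ((a1 * x * a1⁻¹) * (a1 * y * a1⁻¹)) * a1 := by group
        _ = a1⁻¹ * ((a1 * y * a1⁻¹) * (a1 * x * a1⁻¹)) * a1 := by rw [h2]
        _ = y * x := by group
  · exfalso
    have h3 := commutator_case_commute hS hB e hc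
    rw [hcB, e0] at h3
    refine not_commute h (bot_of_commute fun x hx y hy => ?_)
    have h4 := h3 (b0 * x * b0⁻¹) (by rw [mem_cB]; simpa [mul_assoc] using hx) (b0 * y * b0⁻¹)
      (B.mul_mem (B.mul_mem hb0 hy) (B.inv_mem hb0))
    calc x * y = b0⁻¹ * ((b0 * x * b0⁻¹) * (b0 * y * b0⁻¹)) * b0 := by group
      _ = b0⁻¹ * ((b0 * y * b0⁻¹) * (b0 * x * b0⁻¹)) * b0 := by rw [h4]
      _ = y * x := by group

theorem inf_eq_bot_or_eq {A B C : Subgroup G} (hA : A ∈ S) (hB : B ∈ S) (hC : C ∈ S) (h : IsRankOnePair A B) :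
    A ⊓ C = ⊥ ∨ A = C := by
  rcases Subgroup.bot_or_exists_ne_one (A ⊓ C) with e | ⟨x, hx, hx1⟩
  · exact Or.inl e
  · refine Or.inr (eq_of_mul_mem hS hA hB hC h (z := 1) (by simp) (by simp) hx.1 hx1 ?_).1.symm
    simpa using hx.2

theorem point_mem {A B : Subgroup G} (hA : A ∈ S) (hB : B ∈ S) (h : IsRankOnePair A B) {E : Subgroup G}
    (hE : E ∈ unipotentSubgroups A B) : E ∈ S := by
  obtain ⟨x, -, rfl⟩ := hE
  exact hS.conj_mem A hA x

/-- a member with a partner inside a rank one group is one of its points -/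
theorem mem_points {A B C D : Subgroup G} (hA : A ∈ S) (hC : C ∈ S) (hD : D ∈ S)
    (hAB : IsRankOnePair A B) (hCD : IsRankOnePair C D) (hle : A ⊔ B ≤ C ⊔ D) :
    A ∈ unipotentSubgroups C D := by
  by_contra hn
  have hAY : A ≤ C ⊔ D := le_trans le_sup_left hle
  have hBY : B ≤ C ⊔ D := le_trans le_sup_right hle
  have key : ∀ E ∈ unipotentSubgroups C D, ⁅A, E⁆ = ⊥ := by
    intro E hE
    have hES := point_mem hS hC hD hCD hE
    obtain ⟨E', hE', hne⟩ : ∃ E' ∈ unipotentSubgroups C D, E ≠ E' := by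
      by_cases e : E = C
      · exact ⟨D, right_mem hCD, e ▸ hCD.ne⟩
      · exact ⟨C, left_mem, e⟩
    have hp := pair_points hCD hE hE' hne
    have hE'S := point_mem hS hC hD hCD hE'
    rcases hS.pair E hES A hA with e | e | e
    · rw [Subgroup.commutator_comm]; exact e
    · exfalso
      obtain ⟨x, hx, hx1⟩ := (Subgroup.bot_or_exists_ne_one E).resolve_left (ne_bot_left e)
      obtain ⟨a, ha, -, e'⟩ := cl e hx hx1
      have hxY : x ∈ C ⊔ D := by
        obtain ⟨y, hy, rfl⟩ := hE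
        obtain ⟨w, hw, rfl⟩ := hx
        exact mul_mem (mul_mem hy (Subgroup.mem_sup_left hw)) (inv_mem hy)
      refine hn ?_
      rw [eq_cB_inv e']
      exact mem_conj (mem_conj hE (hAY ha)) (inv_mem hxY)
    · exfalso
      have hfix : ∀ a ∈ A, conjBy E a = E := by
        intro a ha
        by_contra hne'
        exact not_commute (pair_points hCD (mem_conj hE (hAY ha)) hE hne')
          (bot_of_commute (commutator_case_commute hS hES e ha))
      have hle' : ⁅E, A⁆ ≤ E := by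
        rw [Subgroup.commutator_le]
        intro x hx a ha
        rw [commutatorElement_def, mul_assoc x, mul_assoc x]
        refine E.mul_mem hx ?_
        have hm : a * x⁻¹ * a⁻¹ ∈ conjBy E a := ⟨x⁻¹, E.inv_mem hx, rfl⟩
        rw [hfix a ha] at hm
        simpa [mul_assoc] using hm
      rcases inf_eq_bot_or_eq hS hES hE'S e.1 hp with h0 | h0
      · rw [inf_eq_right.2 hle'] at h0
        exact hS.ne_bot _ e.1 h0
      · refine hS.ne_bot _ e.1 (bot_of_commute fun x hx a ha => ?_)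
        exact e.2.1 x (h0 ▸ hx) a (Subgroup.mem_sup_right ha)
  refine not_commute hAB (bot_of_commute fun x hx y hy => ?_)
  have : C ⊔ D ≤ Subgroup.centralizer ({x} : Set G) := by
    refine sup_le ?_ ?_
    · exact fun c hc => Subgroup.mem_centralizer_singleton_iff.2 (commute_of_bot (key C left_mem) hx hc).symm
    · exact fun c hc => Subgroup.mem_centralizer_singleton_iff.2 (commute_of_bot (key D (right_mem hCD)) hx hc).symm
  exact (Subgroup.mem_centralizer_singleton_iff.1 (this (hBY hy))).symm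

end RootSet

end Cfsg.Lib.RootSub.RankOneLead
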